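import Mathlib
import Cfsg.Prelude.Def_ClassicalGeometry
import Cfsg.Agent.Lib.Geometry.QuadBasic
import Cfsg.Agent.Lib.Geometry.Reflections
import Cfsg.Agent.Lib.Geometry.DicksonGen
import Cfsg.Agent.Lib.Geometry.Spinor
import Cfsg.Agent.Lib.Forms.Represent

/-!
Siegel transformations of a quadratic space: relations, transitivity, and generation of the derived group.
-/

set_option autoImplicit false
open scoped Matrix commutatorElement

namespace CfsgLib.Orth.Siegel

open CfsgLib.Geometry CfsgLib.Geometry.QuadBasic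

variable {F : Type*} [Field F] {ι : Type} [Fintype ι] [DecidableEq ι] {Q : QuadraticForm F (ι → F)}

local notation "O" => Cfsg.isometryGroup F (QuadraticMap.toFun' Q)

/-- The polar form. -/
abbrev B (Q : QuadraticForm F (ι → F)) : LinearMap.BilinForm F (ι → F) := QuadraticMap.polarBilin Q

theorem B_apply (x y : ι → F) : B Q x y = QuadraticMap.polar (⇑Q) x y := rfl

theorem B_comm (x y : ι → F) : B Q x y = B Q y x := QuadraticMap.polar_comm _ x y

theorem B_self (x : ι → F) : B Q x x = 2 * Q x := by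
  rw [B_apply, QuadraticMap.polar_self, two_nsmul, two_mul]

theorem Q_add (x y : ι → F) : Q (x + y) = Q x + Q y + B Q x y := by rw [B_apply, QuadraticMap.polar]; ring

theorem Q_smul (a : F) (x : ι → F) : Q (a • x) = a * a * Q x := by rw [QuadraticMap.map_smul, smul_eq_mul]

theorem B_gen (g : Cfsg.isometryGroup F ⇑Q) (x y : ι → F) : B Q (g.1.1 *ᵥ x) (g.1.1 *ᵥ y) = B Q x y :=
  Reflections.iso_polar g x y

theorem Q_gen (g : Cfsg.isometryGroup F ⇑Q) (x : ι → F) : Q (g.1.1 *ᵥ x) = Q x :=
  (mem_isometryGroup_iff (⇑Q) g.1).1 g.2 x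

/-- The linear map. -/
noncomputable def L (Q : QuadraticForm F (ι → F)) (u x : ι → F) : (ι → F) →ₗ[F] (ι → F) where
  toFun y := y + B Q y u • x - (B Q y x + Q x * B Q y u) • u
  map_add' a b := by simp only [map_add, LinearMap.add_apply, mul_add, add_smul]; abel
  map_smul' c a := by
    simp only [map_smul, LinearMap.smul_apply, smul_eq_mul, RingHom.id_apply, smul_sub, smul_add, smul_smul]
    congr 2; ring

theorem L_apply (u x y : ι → F) : L Q u x y = y + B Q y u • x - (B Q y x + Q x * B Q y u) • u := rfl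

theorem L_comp {u x y : ι → F} (hu : Q u = 0) (hx : B Q u x = 0) (hy : B Q u y = 0) (z : ι → F) :
    L Q u x (L Q u y z) = L Q u (x + y) z := by
  have e1 : B Q u u = 0 := by rw [B_self, hu, mul_zero]
  have e2 : B Q y u = 0 := by rw [B_comm, hy]
  simp only [L_apply, map_add, map_sub, map_smul, LinearMap.add_apply, LinearMap.sub_apply, LinearMap.smul_apply,
    smul_eq_mul, Q_add, e1, e2, hx, hy, B_comm x y, mul_zero, add_zero, sub_zero]
  module

theorem L_zero (u : ι → F) (z : ι → F) : L Q u 0 z = z := by simp [L_apply]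

theorem L_iso {u x : ι → F} (hu : Q u = 0) (hx : B Q u x = 0) (z : ι → F) : Q (L Q u x z) = Q z := by
  have e1 : B Q x u = 0 := by rw [B_comm, hx]
  rw [L_apply, sub_eq_add_neg, ← neg_smul, Q_add, Q_add, Q_smul, Q_smul, hu]
  simp only [map_add, map_smul, LinearMap.add_apply, LinearMap.smul_apply, smul_eq_mul, e1]
  ring

/-- The Siegel transformation. -/
noncomputable def S (u x : ι → F) (hu : Q u = 0) (hx : B Q u x = 0) : Cfsg.isometryGroup F ⇑Q :=
  ⟨⟨LinearMap.toMatrix' (L Q u x), LinearMap.toMatrix' (L Q u (-x)),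
    by rw [← LinearMap.toMatrix'_comp, ← LinearMap.toMatrix'_id]
       exact congrArg _ (LinearMap.ext fun z => by
         rw [LinearMap.comp_apply, L_comp hu hx (by rw [map_neg, hx, neg_zero]), add_neg_cancel, L_zero]; rfl),
    by rw [← LinearMap.toMatrix'_comp, ← LinearMap.toMatrix'_id]
       exact congrArg _ (LinearMap.ext fun z => by
         rw [LinearMap.comp_apply, L_comp hu (by rw [map_neg, hx, neg_zero]) hx, neg_add_cancel, L_zero]; rfl)⟩,
   (mem_isometryGroup_iff _ _).2 fun z => by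
     show Q (LinearMap.toMatrix' (L Q u x) *ᵥ z) = Q z
     rw [LinearMap.toMatrix'_mulVec]; exact L_iso hu hx z⟩

theorem S_apply (u x : ι → F) (hu : Q u = 0) (hx : B Q u x = 0) (z : ι → F) :
    (S u x hu hx).1.1 *ᵥ z = z + B Q z u • x - (B Q z x + Q x * B Q z u) • u := by
  show LinearMap.toMatrix' (L Q u x) *ᵥ z = _
  rw [LinearMap.toMatrix'_mulVec]; rfl

theorem ext_mulVec {g h : Cfsg.isometryGroup F ⇑Q} (H : ∀ z, g.1.1 *ᵥ z = h.1.1 *ᵥ z) : g = h :=
  Subtype.ext (Units.ext (Matrix.toLin'.injective (LinearMap.ext fun z => by simpa using H z)))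

theorem mulVec_mul (g h : Cfsg.isometryGroup F ⇑Q) (z : ι → F) : (g * h).1.1 *ᵥ z = g.1.1 *ᵥ (h.1.1 *ᵥ z) := by
  rw [Subgroup.coe_mul, Units.val_mul, Matrix.mulVec_mulVec]

theorem S_mul {u x y : ι → F} (hu : Q u = 0) (hx : B Q u x = 0) (hy : B Q u y = 0) :
    S u x hu hx * S u y hu hy = S u (x + y) hu (by rw [map_add, hx, hy, add_zero]) :=
  ext_mulVec fun z => by
    rw [mulVec_mul]
    show LinearMap.toMatrix' (L Q u x) *ᵥ (LinearMap.toMatrix' (L Q u y) *ᵥ z) = LinearMap.toMatrix' (L Q u (x + y)) *ᵥ z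
    simp only [LinearMap.toMatrix'_mulVec]; exact L_comp hu hx hy z

theorem S_zero {u : ι → F} (hu : Q u = 0) (h : B Q u 0 = 0) : S u 0 hu h = 1 :=
  ext_mulVec fun z => by simp [S_apply]

theorem S_congr {u u' x x' : ι → F} (hu : Q u = 0) (hx : B Q u x = 0) (hu' : Q u' = 0) (hx' : B Q u' x' = 0)
    (e : u = u') (e' : x = x') : S u x hu hx = S u' x' hu' hx' := by subst e e'; rfl

theorem S_inv {u x : ι → F} (hu : Q u = 0) (hx : B Q u x = 0) :
    (S u x hu hx)⁻¹ = S u (-x) hu (by rw [map_neg, hx, neg_zero]) :=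
  inv_eq_of_mul_eq_one_right (by
    rw [S_mul, S_congr hu _ hu (show B Q u 0 = 0 by simp) rfl (add_neg_cancel x), S_zero])

theorem S_add_smul {u x : ι → F} (hu : Q u = 0) (hx : B Q u x = 0) (t : F) :
    S u (x + t • u) hu (by rw [map_add, map_smul, hx, B_self, hu]; simp) = S u x hu hx :=
  ext_mulVec fun z => by
    have e : B Q x u = 0 := by rw [B_comm, hx]
    simp only [S_apply, map_add, map_smul, smul_eq_mul, Q_add, Q_smul, hu, e]
    module

theorem S_smul_left {u x : ι → F} (hu : Q u = 0) (c : F) (hx : B Q (c • u) x = 0) (hx' : B Q u (c • x) = 0) :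
    S (c • u) x (by rw [Q_smul, hu, mul_zero]) hx = S u (c • x) hu hx' :=
  ext_mulVec fun z => by
    simp only [S_apply, map_smul, smul_eq_mul, Q_smul]
    module

theorem S_conj (g : Cfsg.isometryGroup F ⇑Q) {u x : ι → F} (hu : Q u = 0) (hx : B Q u x = 0) :
    g * S u x hu hx * g⁻¹
      = S (g.1.1 *ᵥ u) (g.1.1 *ᵥ x) (by rw [Q_gen, hu]) (by rw [B_gen, hx]) := by
  refine ext_mulVec fun z => ?_
  obtain ⟨w, rfl⟩ : ∃ w, g.1.1 *ᵥ w = z := ⟨(g⁻¹).1.1 *ᵥ z, by rw [← mulVec_mul, mul_inv_cancel]; simp⟩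
  rw [mulVec_mul, mulVec_mul, show (g⁻¹).1.1 *ᵥ (g.1.1 *ᵥ w) = w by rw [← mulVec_mul, inv_mul_cancel]; simp]
  simp only [S_apply, B_gen, Q_gen, Matrix.mulVec_sub, Matrix.mulVec_add, Matrix.mulVec_smul]

variable (Q) in
/-- All Siegel transformations. -/
def roots : Set (Cfsg.isometryGroup F ⇑Q) :=
  {g | ∃ u x, ∃ (hu : Q u = 0) (hx : B Q u x = 0), g = S u x hu hx}

variable (Q) in
/-- The subgroup they generate. -/
noncomputable def E : Subgroup (Cfsg.isometryGroup F ⇑Q) := Subgroup.closure (roots Q)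

theorem S_mem_E {u x : ι → F} (hu : Q u = 0) (hx : B Q u x = 0) : S u x hu hx ∈ E Q :=
  Subgroup.subset_closure ⟨u, x, hu, hx, rfl⟩

instance E_normal : (E Q).Normal := ⟨fun n hn g => by
  induction hn using Subgroup.closure_induction with
  | mem y hy =>
    obtain ⟨u, x, hu, hx, rfl⟩ := hy
    rw [S_conj]; exact S_mem_E _ _
  | one => simp
  | mul a b _ _ ha hb => rw [show g * (a * b) * g⁻¹ = (g * a * g⁻¹) * (g * b * g⁻¹) by group]; exact mul_mem ha hb
  | inv a _ ha => rw [show g * a⁻¹ * g⁻¹ = (g * a * g⁻¹)⁻¹ by group]; exact inv_mem ha⟩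

/-! ### Hyperbolic pairs -/

variable (hQ : (QuadraticMap.polarBilin Q).Nondegenerate)

include hQ in
theorem exists_partner {u : ι → F} (hu : Q u = 0) (hu0 : u ≠ 0) : ∃ v, Q v = 0 ∧ B Q u v = 1 := by
  obtain ⟨y, hy⟩ : ∃ y, B Q u y ≠ 0 := by
    by_contra h
    simp only [not_exists, not_not] at h
    exact hu0 (hQ.1 u h)
  refine ⟨(B Q u y)⁻¹ • y + (-(Q ((B Q u y)⁻¹ • y))) • u, ?_, ?_⟩
  · rw [Q_add, Q_smul (-(Q _)), hu]
    simp only [map_smul, LinearMap.smul_apply, smul_eq_mul, B_comm y u]
    field_simp; ring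
  · rw [map_add, map_smul, map_smul, B_self, hu, smul_eq_mul, inv_mul_cancel₀ hy]; simp

theorem exists_singular_in [Finite F] (C : Submodule F (ι → F)) (hC : 3 ≤ Module.finrank F C) :
    ∃ z ∈ C, z ≠ 0 ∧ Q z = 0 := by
  classical
  haveI := Fintype.ofFinite F
  by_contra hne
  simp only [not_exists, not_and] at hne
  have next1 : ∀ {k : ℕ} (s : Fin k → (ι → F)), k ≤ 2 →
      ∃ y ∈ C, y ≠ 0 ∧ ∀ i, B Q (s i) y = 0 := by
    intro k s hk
    let φ : C →ₗ[F] (Fin k → F) := LinearMap.pi fun i => (B Q (s i)).comp C.subtype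
    have h1 := φ.finrank_range_add_finrank_ker
    have h2 : Module.finrank F (LinearMap.range φ) ≤ k := (Submodule.finrank_le _).trans (le_of_eq (Module.finrank_fin_fun F))
    have h3 : LinearMap.ker φ ≠ ⊥ := fun e => by rw [e, finrank_bot] at h1; omega
    obtain ⟨y, hy, hy0⟩ := Submodule.exists_mem_ne_zero_of_ne_bot h3
    exact ⟨y.1, y.2, fun e => hy0 (Subtype.ext e), fun i => congrFun (LinearMap.mem_ker.1 hy) i⟩
  obtain ⟨x, hx, hx0, -⟩ := next1 (k := 0) Fin.elim0 (by omega)
  have hQx := hne x hx hx0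
  obtain ⟨y, hy, hy0, hxy⟩ := next1 ![x] (by omega)
  have hQy := hne y hy hy0
  have exy : B Q x y = 0 := hxy 0
  by_cases h2 : (2 : F) = 0
  · haveI : CharP F 2 := CharTwo.of_one_ne_zero_of_two_eq_zero one_ne_zero h2
    have hbij : Function.Bijective (fun t : F => t * t) := by
      refine Finite.injective_iff_bijective.1 fun s t (h : s * s = t * t) => ?_
      rcases mul_self_eq_mul_self_iff.1 h with e | e
      · exact e
      · rwa [CharTwo.neg_eq] at e
    let φ : C →ₗ[F] F := (B Q x).comp C.subtype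
    have h1 := φ.finrank_range_add_finrank_ker
    have h3 : Module.finrank F (LinearMap.range φ) ≤ 1 := (Submodule.finrank_le _).trans (le_of_eq (Module.finrank_self F))
    obtain ⟨y', hy', hy'x, hy'n⟩ : ∃ y' ∈ C, B Q x y' = 0 ∧ y' ∉ Submodule.span F {x} := by
      by_contra h
      simp only [not_exists, not_and, not_not] at h
      have hle : (LinearMap.ker φ).map C.subtype ≤ Submodule.span F {x} := by
        rintro _ ⟨w, hw, rfl⟩
        exact h w.1 w.2 (LinearMap.mem_ker.1 hw)
      have h4 := Submodule.finrank_mono hle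
      rw [(Submodule.equivMapOfInjective _ C.injective_subtype _).finrank_eq.symm, finrank_span_singleton hx0] at h4
      omega
    have hy'0 : y' ≠ 0 := fun e => hy'n (e ▸ Submodule.zero_mem _)
    have hQy' := hne y' hy' hy'0
    obtain ⟨t, ht⟩ := hbij.2 (-(Q x) / Q y')
    have ht0 : t ≠ 0 := fun e => by
      rw [e] at ht
      have : -(Q x) / Q y' = 0 := by rw [← ht]; ring
      exact hQx (neg_eq_zero.1 ((div_eq_zero_iff.1 this).resolve_right hQy'))
    refine hne _ (C.add_mem hx (C.smul_mem t hy')) (fun e => hy'n ?_) ?_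
    · refine Submodule.mem_span_singleton.2 ⟨-t⁻¹, ?_⟩
      rw [eq_neg_of_add_eq_zero_left e, neg_smul, smul_neg, neg_neg, inv_smul_smul₀ ht0]
    · rw [Q_add, Q_smul, map_smul, hy'x, smul_zero, add_zero, show t * t = -(Q x) / Q y' from ht, div_mul_cancel₀ _ hQy']
      ring
  · obtain ⟨w, hw, hw0, hwx⟩ := next1 ![x, y] (by omega)
    have hQw := hne w hw hw0
    have exw : B Q x w = 0 := hwx 0
    have eyw : B Q y w = 0 := hwx 1
    obtain ⟨a, b, hab⟩ := CfsgLib.Forms.Represent.exists_add_eq h2 hQy hQw (-(Q x))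
    refine hne (x + (a • y + b • w)) (C.add_mem hx (C.add_mem (C.smul_mem a hy) (C.smul_mem b hw))) (fun e => ?_) ?_
    · have h := congrArg (B Q x) e
      rw [map_add, map_add, map_smul, map_smul, exy, exw, B_self, map_zero] at h
      simp only [smul_zero, add_zero, mul_eq_zero] at h
      exact hQx (h.resolve_left h2)
    · rw [Q_add, Q_add, Q_smul, Q_smul]
      simp only [map_add, map_smul, LinearMap.smul_apply, smul_eq_mul, exy, exw, eyw, mul_zero, add_zero]
      linear_combination hab

/-- A subspace containing a hyperbolic pair is spanned by its singular vectors. -/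
theorem span_singular {H : Submodule F (ι → F)} {z w : ι → F} (hz : z ∈ H) (hw : w ∈ H) (hQz : Q z = 0) (hQw : Q w = 0)
    (hzw : B Q z w = 1) : H ≤ Submodule.span F {x | x ∈ H ∧ Q x = 0} := by
  intro x hx
  set P := Submodule.span F {x | x ∈ H ∧ Q x = 0}
  have hzP : z ∈ P := Submodule.subset_span ⟨hz, hQz⟩
  have hwP : w ∈ P := Submodule.subset_span ⟨hw, hQw⟩
  set y := x - B Q x w • z - B Q x z • w with hy
  have hyH : y ∈ H := H.sub_mem (H.sub_mem hx (H.smul_mem _ hz)) (H.smul_mem _ hw)
  have hwz : B Q w z = 1 := by rw [B_comm, hzw]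
  have ezy : B Q z y = 0 := by
    simp only [hy, map_sub, map_smul, B_self, hQz, hzw, smul_eq_mul, B_comm z x]; ring
  have ewy : B Q w y = 0 := by
    simp only [hy, map_sub, map_smul, B_self, hQw, hwz, smul_eq_mul, B_comm w x]; ring
  have hsing : Q (z + y + (-Q y) • w) = 0 := by
    simp only [Q_add, Q_smul, hQz, hQw, map_add, map_smul, LinearMap.add_apply, smul_eq_mul, hzw, ezy, B_comm y w, ewy]
    ring
  have hyP : y ∈ P := by
    have h : z + y + (-Q y) • w ∈ P := Submodule.subset_span ⟨H.add_mem (H.add_mem hz hyH) (H.smul_mem _ hw), hsing⟩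
    have := P.sub_mem (P.sub_mem h hzP) (P.smul_mem (-Q y) hwP)
    rwa [show z + y + (-Q y) • w - z - (-Q y) • w = y by abel] at this
  have := P.add_mem (P.add_mem hyP (P.smul_mem (B Q x w) hzP)) (P.smul_mem (B Q x z) hwP)
  rwa [show y + B Q x w • z + B Q x z • w = x by rw [hy]; abel] at this

include hQ in
/-- The perp of a nonzero singular vector contains a hyperbolic pair orthogonal to a given partner. -/
theorem exists_pair_perp [Finite F] (hn : 5 ≤ Fintype.card ι) {u v : ι → F} (hu : Q u = 0) (hv : Q v = 0)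
    (huv : B Q u v = 1) :
    ∃ z w, Q z = 0 ∧ Q w = 0 ∧ B Q z w = 1 ∧ B Q u z = 0 ∧ B Q v z = 0 ∧ B Q u w = 0 ∧ B Q v w = 0 := by
  let φ : (ι → F) →ₗ[F] (F × F) := (B Q u).prod (B Q v)
  have h1 := φ.finrank_range_add_finrank_ker
  have h2 : Module.finrank F (LinearMap.range φ) ≤ 2 :=
    (Submodule.finrank_le _).trans (le_of_eq (by simp))
  rw [Module.finrank_fintype_fun_eq_card] at h1
  obtain ⟨z, hz, hz0, hQz⟩ := exists_singular_in (Q := Q) (LinearMap.ker φ) (by omega)
  have hzu : B Q u z = 0 := congrArg Prod.fst (LinearMap.mem_ker.1 hz)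
  have hzv : B Q v z = 0 := congrArg Prod.snd (LinearMap.mem_ker.1 hz)
  have hvu : B Q v u = 1 := by rw [B_comm, huv]
  obtain ⟨w0, hw0, hzw0⟩ := exists_partner hQ hQz hz0
  set w1 := w0 - B Q v w0 • u - B Q u w0 • v with hw1
  have e1 : B Q z w1 = 1 := by
    simp only [hw1, map_sub, map_smul, smul_eq_mul, B_comm z u, B_comm z v, hzu, hzv, hzw0]; ring
  have e2 : B Q u w1 = 0 := by
    simp only [hw1, map_sub, map_smul, smul_eq_mul, B_self, hu, huv]; ring
  have e3 : B Q v w1 = 0 := by
    simp only [hw1, map_sub, map_smul, smul_eq_mul, B_self, hv, hvu]; ring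
  refine ⟨z, w1 + (-Q w1) • z, hQz, ?_, ?_, hzu, hzv, ?_, ?_⟩
  · simp only [Q_add, Q_smul, hQz, map_smul, smul_eq_mul, B_comm w1 z, e1]; ring
  · simp only [map_add, map_smul, smul_eq_mul, e1, B_self, hQz]; ring
  · simp only [map_add, map_smul, smul_eq_mul, e2, hzu]; ring
  · simp only [map_add, map_smul, smul_eq_mul, e3, hzv]; ring

include hQ in
/-- Each Siegel transformation is a product of commutators. -/
theorem S_mem_commutator [Finite F] (hn : 5 ≤ Fintype.card ι) {u x : ι → F} (hu : Q u = 0) (hx : B Q u x = 0) :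
    S u x hu hx ∈ ⁅E Q, E Q⁆ := by
  by_cases hu0 : u = 0
  · have : S u x hu hx = 1 := ext_mulVec fun z => by simp [S_apply, hu0]
    rw [this]; exact one_mem _
  obtain ⟨v, hv, huv⟩ := exists_partner hQ hu hu0
  obtain ⟨z, w, hz, hw, hzw, huz, hvz, huw, hvw⟩ := exists_pair_perp hQ hn hu hv huv
  let Mset : Submodule F (ι → F) :=
    { carrier := {y | B Q u y = 0 ∧ ∀ c : F, ∀ h : B Q u (c • y) = 0, S u (c • y) hu h ∈ ⁅E Q, E Q⁆}
      add_mem' := by
        rintro a b ⟨ha, ha'⟩ ⟨hb, hb'⟩
        refine ⟨by rw [map_add, ha, hb, add_zero], fun c h => ?_⟩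
        have h1 : B Q u (c • a) = 0 := by rw [map_smul, ha, smul_zero]
        have h2 : B Q u (c • b) = 0 := by rw [map_smul, hb, smul_zero]
        rw [S_congr hu h hu (show B Q u (c • a + c • b) = 0 by rw [map_add, h1, h2, add_zero]) rfl (smul_add c a b),
          ← S_mul hu h1 h2]
        exact mul_mem (ha' c h1) (hb' c h2)
      zero_mem' := ⟨map_zero _, fun c h => by
        rw [S_congr hu h hu (show B Q u 0 = 0 by simp) rfl (smul_zero c), S_zero]; exact one_mem _⟩
      smul_mem' := by
        rintro d a ⟨ha, ha'⟩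
        refine ⟨by rw [map_smul, ha, smul_zero], fun c h => ?_⟩
        rw [S_congr hu h hu (show B Q u ((c * d) • a) = 0 by rw [map_smul, ha, smul_zero]) rfl (smul_smul c d a)]
        exact ha' _ _ }
  have hwz : B Q w z = 1 := by rw [B_comm, hzw]
  -- the basic commutator
  have key : ∀ (a b : ι → F), Q a = 0 → Q b = 0 → B Q a b = 1 → B Q u a = 0 → B Q u b = 0 → ∀ y, B Q u y = 0 →
      B Q a y = 0 → B Q b y = 0 → ∀ c : F, ∀ h, S u (c • y + (-(c * Q y)) • a) hu h ∈ ⁅E Q, E Q⁆ := by
    intro a b ha hb hab hua hub y huy hay hby c h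
    have h1 : B Q u (c • b) = 0 := by rw [map_smul, hub, smul_zero]
    have hmem : ⁅S a y ha hay, S u (c • b) hu h1⁆ ∈ ⁅E Q, E Q⁆ :=
      Subgroup.commutator_mem_commutator (S_mem_E _ _) (S_mem_E _ _)
    have hfix : (S a y ha hay).1.1 *ᵥ u = u := by rw [S_apply, hua, huy]; simp
    have himg : (S a y ha hay).1.1 *ᵥ (c • b) = c • b + c • y + (-(c * Q y)) • a := by
      rw [S_apply]
      simp only [map_smul, LinearMap.smul_apply, smul_eq_mul, B_comm b a, hab, hby, mul_one, mul_zero, zero_add]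
      module
    rw [commutatorElement_def, S_conj, S_inv hu h1] at hmem
    rw [S_congr _ _ hu (show B Q u (c • b + c • y + (-(c * Q y)) • a) = 0 by
      simp only [map_add, map_smul, hub, huy, hua, smul_zero, add_zero]) hfix himg, S_mul] at hmem
    rw [S_congr hu h hu _ rfl (show c • y + (-(c * Q y)) • a = c • b + c • y + (-(c * Q y)) • a + -(c • b) by abel)]
    exact hmem
  have hzM : ∀ a b : ι → F, Q a = 0 → Q b = 0 → B Q a b = 1 → B Q u a = 0 → B Q u b = 0 → B Q v a = 0 → B Q v b = 0 →
      a ∈ Mset := by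
    intro a b ha hb hab hua hub hva hvb
    -- two vectors orthogonal to the pair with product one
    let φ : (ι → F) →ₗ[F] (F × F) × (F × F) := ((B Q u).prod (B Q v)).prod ((B Q a).prod (B Q b))
    have h1 := φ.finrank_range_add_finrank_ker
    have h2 : Module.finrank F (LinearMap.range φ) ≤ 4 := (Submodule.finrank_le _).trans (le_of_eq (by simp))
    rw [Module.finrank_fintype_fun_eq_card] at h1
    have h3 : LinearMap.ker φ ≠ ⊥ := fun e => by rw [e, finrank_bot] at h1; omega
    obtain ⟨y1, hy1, hy10⟩ := Submodule.exists_mem_ne_zero_of_ne_bot h3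
    have hu1 : B Q u y1 = 0 := congrArg (fun p : (F × F) × (F × F) => p.1.1) (LinearMap.mem_ker.1 hy1)
    have hv1 : B Q v y1 = 0 := congrArg (fun p : (F × F) × (F × F) => p.1.2) (LinearMap.mem_ker.1 hy1)
    have ha1 : B Q a y1 = 0 := congrArg (fun p : (F × F) × (F × F) => p.2.1) (LinearMap.mem_ker.1 hy1)
    have hb1 : B Q b y1 = 0 := congrArg (fun p : (F × F) × (F × F) => p.2.2) (LinearMap.mem_ker.1 hy1)
    obtain ⟨p, hp⟩ : ∃ p, B Q y1 p = 1 := by
      obtain ⟨p, hp⟩ : ∃ p, B Q y1 p ≠ 0 := by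
        by_contra hc
        simp only [not_exists, not_not] at hc
        exact hy10 (hQ.1 y1 hc)
      exact ⟨(B Q y1 p)⁻¹ • p, by rw [map_smul, smul_eq_mul, inv_mul_cancel₀ hp]⟩
    set y2 := p - B Q v p • u - B Q u p • v - B Q b p • a - B Q a p • b with hy2
    have hba : B Q b a = 1 := by rw [B_comm, hab]
    have hvu : B Q v u = 1 := by rw [B_comm, huv]
    have hau : B Q a u = 0 := by rw [B_comm, hua]
    have hbu : B Q b u = 0 := by rw [B_comm, hub]
    have hav : B Q a v = 0 := by rw [B_comm, hva]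
    have hbv : B Q b v = 0 := by rw [B_comm, hvb]
    have f1 : B Q u y2 = 0 := by simp only [hy2, map_sub, map_smul, smul_eq_mul, B_self, hu, huv, hua, hub]; ring
    have f3 : B Q a y2 = 0 := by simp only [hy2, map_sub, map_smul, smul_eq_mul, B_self, ha, hab, hau, hav]; ring
    have f4 : B Q b y2 = 0 := by simp only [hy2, map_sub, map_smul, smul_eq_mul, B_self, hb, hba, hbu, hbv]; ring
    have f5 : B Q y1 y2 = 1 := by
      simp only [hy2, map_sub, map_smul, smul_eq_mul, B_comm y1 u, B_comm y1 v, B_comm y1 a, B_comm y1 b, hu1, hv1, ha1, hb1, hp]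
      ring
    refine ⟨hua, fun c h => ?_⟩
    have hk : ∀ (y : ι → F) (d : F), B Q u y = 0 → B Q u (d • y + (-(d * Q y)) • a) = 0 := fun y d hy => by
      simp only [map_add, map_smul, hy, hua, smul_zero, add_zero]
    have g12 : B Q u (y1 + y2) = 0 := by rw [map_add, hu1, f1, add_zero]
    have m12 := key a b ha hb hab hua hub (y1 + y2) g12 (by rw [map_add, ha1, f3, add_zero]) (by rw [map_add, hb1, f4, add_zero]) c (hk _ c g12)
    have m1 := key a b ha hb hab hua hub y1 hu1 ha1 hb1 c (hk _ c hu1)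
    have m2 := key a b ha hb hab hua hub y2 f1 f3 f4 c (hk _ c f1)
    have hm := mul_mem (mul_mem (inv_mem m12) m1) m2
    rw [S_inv, S_mul, S_mul] at hm
    rw [S_congr hu h hu _ rfl (show c • a = -(c • (y1 + y2) + (-(c * Q (y1 + y2))) • a) + (c • y1 + (-(c * Q y1)) • a)
        + (c • y2 + (-(c * Q y2)) • a) by rw [Q_add, f5]; module)]
    exact hm
  have hzm : z ∈ Mset := hzM z w hz hw hzw huz huw hvz hvw
  have hwm : w ∈ Mset := hzM w z hw hz hwz huw huz hvw hvz
  have hum : u ∈ Mset := ⟨by rw [B_self, hu, mul_zero], fun c h => by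
    have e := S_add_smul (x := 0) hu (map_zero _) c
    rw [S_congr hu h hu (show B Q u (0 + c • u) = 0 by rw [zero_add]; exact h) rfl (zero_add _).symm, e, S_zero]
    exact one_mem _⟩
  set y := x - B Q v x • u - B Q w x • z - B Q z x • w with hy
  have hvu : B Q v u = 1 := by rw [B_comm, huv]
  have g1 : B Q u y = 0 := by
    simp only [hy, map_sub, map_smul, smul_eq_mul, B_self, hu, huz, huw, hx]; ring
  have g2 : B Q z y = 0 := by
    simp only [hy, map_sub, map_smul, smul_eq_mul, B_self, hz, hzw, B_comm z u, huz]; ring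
  have g3 : B Q w y = 0 := by
    simp only [hy, map_sub, map_smul, smul_eq_mul, B_self, hw, hwz, B_comm w u, huw]; ring
  have hym : y ∈ Mset := ⟨g1, fun c h => by
    have h1 : B Q u (c • y + (-(c * Q y)) • z) = 0 := by simp only [map_add, map_smul, g1, huz, smul_zero, add_zero]
    have hm := mul_mem (key z w hz hw hzw huz huw y g1 g2 g3 c h1) (hzm.2 (c * Q y) (by simp [map_smul, huz]))
    rw [S_mul] at hm
    rw [S_congr hu h hu _ rfl (show c • y = c • y + (-(c * Q y)) • z + (c * Q y) • z by module)]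
    exact hm⟩
  have hxm : x ∈ Mset := by
    have := Mset.add_mem (Mset.add_mem (Mset.add_mem hym (Mset.smul_mem (B Q v x) hum)) (Mset.smul_mem (B Q w x) hzm))
      (Mset.smul_mem (B Q z x) hwm)
    rwa [show y + B Q v x • u + B Q w x • z + B Q z x • w = x by rw [hy]; abel] at this
  have := hxm.2 1 (by rw [one_smul]; exact hx)
  rwa [S_congr hu _ hu hx rfl (one_smul F x)] at this

/-- Vectors with the same norm and the same nonzero product with a singular vector are equivalent. -/
theorem exists_E_of_common {a b v : ι → F} (hv : Q v = 0) (hab : Q a = Q b) (ha : B Q v a = 1) (hb : B Q v b = 1) :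
    ∃ e ∈ E Q, e.1.1 *ᵥ a = b := by
  have hbv : B Q v (b - a) = 0 := by rw [map_sub, ha, hb, sub_self]
  refine ⟨S v (b - a) hv hbv, S_mem_E _ _, ?_⟩
  rw [S_apply, B_comm a v, ha]
  have hQb := Q_add (Q := Q) a (b - a)
  rw [add_sub_cancel, ← hab] at hQb
  rw [one_smul, mul_one, show B Q a (b - a) + Q (b - a) = 0 by linear_combination -hQb, zero_smul, sub_zero]
  abel

include hQ in
/-- The group generated by the Siegel transformations is transitive on vectors of a given nonzero norm. -/
theorem exists_E_norm [Finite F] (hn : 5 ≤ Fintype.card ι) {a b : ι → F} (ha : Q a ≠ 0) (hab : Q b = Q a) :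
    ∃ e ∈ E Q, e.1.1 *ᵥ a = b := by
  have step : ∀ a b : ι → F, Q a ≠ 0 → Q b = Q a → (∀ t : F, t • (a - b) ≠ a) → ∃ e ∈ E Q, e.1.1 *ᵥ a = b := by
    intro a b ha hab hne
    set d := a - b with hd
    set H := LinearMap.ker (B Q d)
    have h1 := (B Q d).finrank_range_add_finrank_ker
    have h2 : Module.finrank F (LinearMap.range (B Q d)) ≤ 1 := (Submodule.finrank_le _).trans (le_of_eq (Module.finrank_self F))
    rw [Module.finrank_fintype_fun_eq_card] at h1
    change _ + Module.finrank F H = _ at h1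
    have hH : 4 ≤ Module.finrank F H := by omega
    -- a singular vector of the perp outside its radical
    obtain ⟨z, hzH, hz0, hzd, hQz⟩ : ∃ z ∈ H, z ≠ 0 ∧ (∀ t : F, t • d ≠ z) ∧ Q z = 0 := by
      obtain ⟨C, hC⟩ := Submodule.exists_isCompl (Submodule.span F {d})
      have h4 := Submodule.finrank_add_finrank_le_of_disjoint (K := F) (s := H ⊓ C) (t := ⊥) disjoint_bot_right
      have h5 : 3 ≤ Module.finrank F ↥(H ⊓ C) := by
        have := Submodule.finrank_sup_add_finrank_inf_eq H C
        have h6 := Submodule.finrank_add_eq_of_isCompl hC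
        have h7 : Module.finrank F (Submodule.span F {d}) ≤ 1 := (finrank_span_le_card {d}).trans (by simp)
        have h8 := Submodule.finrank_le (H ⊔ C)
        rw [Module.finrank_fintype_fun_eq_card] at h6 h8
        omega
      obtain ⟨z, hz, hz0, hQz⟩ := exists_singular_in (Q := Q) (H ⊓ C) h5
      refine ⟨z, hz.1, hz0, fun t e => hz0 ?_, hQz⟩
      exact Submodule.disjoint_def.1 hC.disjoint z (Submodule.mem_span_singleton.2 ⟨t, e⟩) hz.2
    obtain ⟨w0, hw0H, hzw0⟩ : ∃ w0 ∈ H, B Q z w0 ≠ 0 := by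
      by_contra h
      simp only [not_exists, not_and, not_not] at h
      have hmem : z ∈ LinearMap.BilinForm.orthogonal (B Q) H :=
        LinearMap.BilinForm.mem_orthogonal_iff.2 fun y hy => by
          show B Q y z = 0
          rw [B_comm]; exact h y hy
      have hle : Submodule.span F {d} ≤ LinearMap.BilinForm.orthogonal (B Q) H :=
        (Submodule.span_singleton_le_iff_mem _ _).2 (LinearMap.BilinForm.mem_orthogonal_iff.2 fun y hy => by
          show B Q y d = 0
          rw [B_comm]; exact LinearMap.mem_ker.1 hy)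
      have hd0 : d ≠ 0 := by
        intro e
        exact hne 0 (by rw [zero_smul]; exact (False.elim (hz0 (hQ.1 z fun y => h y (by
          show y ∈ LinearMap.ker (B Q d); rw [LinearMap.mem_ker, e, map_zero]; rfl)))))
      have heq : Submodule.span F {d} = LinearMap.BilinForm.orthogonal (B Q) H := by
        refine Submodule.eq_of_le_of_finrank_le hle ?_
        rw [LinearMap.BilinForm.finrank_orthogonal hQ, finrank_span_singleton hd0, Module.finrank_fintype_fun_eq_card]
        omega
      rw [← heq] at hmem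
      obtain ⟨t, ht⟩ := Submodule.mem_span_singleton.1 hmem
      exact hzd t ht
    set w1 := (B Q z w0)⁻¹ • w0 with hw1
    have e1 : B Q z w1 = 1 := by rw [hw1, map_smul, smul_eq_mul, inv_mul_cancel₀ hzw0]
    set w := w1 + (-Q w1) • z with hw
    have hwH : w ∈ H := H.add_mem (H.smul_mem _ hw0H) (H.smul_mem _ hzH)
    have hQw : Q w = 0 := by simp only [hw, Q_add, Q_smul, hQz, map_smul, smul_eq_mul, B_comm w1 z, e1]; ring
    have hzw : B Q z w = 1 := by simp only [hw, map_add, map_smul, smul_eq_mul, e1, B_self, hQz]; ring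
    obtain ⟨p, ⟨hpH, hQp⟩, hpa⟩ : ∃ p, (p ∈ H ∧ Q p = 0) ∧ B Q a p ≠ 0 := by
      by_contra hc
      simp only [not_exists, not_and, not_not] at hc
      have hle : H ≤ LinearMap.ker (B Q a) := (span_singular hzH hwH hQz hQw hzw).trans
        (Submodule.span_le.2 fun p hp => LinearMap.mem_ker.2 (hc p hp))
      have hle' : LinearMap.BilinForm.orthogonal (B Q) (LinearMap.ker (B Q a))
          ≤ LinearMap.BilinForm.orthogonal (B Q) H := LinearMap.BilinForm.orthogonal_le hle
      have hamem : a ∈ LinearMap.BilinForm.orthogonal (B Q) H :=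
        hle' (LinearMap.BilinForm.mem_orthogonal_iff.2 fun y hy => by
          show B Q y a = 0
          rw [B_comm]; exact LinearMap.mem_ker.1 hy)
      have hd0 : d ≠ 0 := by
        intro e
        have : a = 0 := hQ.1 a fun y => LinearMap.mem_ker.1 (hle (by
          show y ∈ LinearMap.ker (B Q d); rw [LinearMap.mem_ker, e, map_zero]; rfl))
        exact ha (by rw [this, QuadraticMap.map_zero])
      have heq : Submodule.span F {d} = LinearMap.BilinForm.orthogonal (B Q) H := by
        refine Submodule.eq_of_le_of_finrank_le ?_ ?_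
        · exact (Submodule.span_singleton_le_iff_mem _ _).2 (LinearMap.BilinForm.mem_orthogonal_iff.2 fun y hy => by
            show B Q y d = 0
            rw [B_comm]; exact LinearMap.mem_ker.1 hy)
        · rw [LinearMap.BilinForm.finrank_orthogonal hQ, finrank_span_singleton hd0, Module.finrank_fintype_fun_eq_card]
          omega
      rw [← heq] at hamem
      obtain ⟨t, ht⟩ := Submodule.mem_span_singleton.1 hamem
      exact hne t ht
    set c := B Q a p
    refine exists_E_of_common (v := c⁻¹ • p) (by rw [Q_smul, hQp, mul_zero]) hab.symm ?_ ?_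
    · rw [map_smul, LinearMap.smul_apply, smul_eq_mul, B_comm, inv_mul_cancel₀ hpa]
    · have hdp : B Q d p = 0 := LinearMap.mem_ker.1 hpH
      have hbp : B Q b p = c := by
        rw [hd, map_sub, LinearMap.sub_apply] at hdp
        exact (sub_eq_zero.1 hdp).symm
      rw [map_smul, LinearMap.smul_apply, smul_eq_mul, B_comm, hbp, inv_mul_cancel₀ hpa]
  by_cases h : ∀ t : F, t • (a - b) ≠ a
  · exact step a b ha hab h
  simp only [not_forall, not_not] at h
  obtain ⟨t, ht⟩ := h
  -- the two are dependent; pass through a third vector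
  have ha0 : a ≠ 0 := fun e => ha (by rw [e, QuadraticMap.map_zero])
  obtain ⟨c, hc, hca⟩ : ∃ c, Q c = Q a ∧ c ∉ Submodule.span F {a} := by
    obtain ⟨u, hu, hu0, hQu⟩ := exists_singular_in (Q := Q) (⊤ : Submodule F (ι → F))
      (by rw [finrank_top, Module.finrank_fintype_fun_eq_card]; omega)
    obtain ⟨v, hv, huv⟩ := exists_partner hQ hQu hu0
    obtain ⟨z, w, hz, hw, hzw, huz, hvz, huw, hvw⟩ := exists_pair_perp hQ hn hQu hv huv
    have hc1 : Q (u + Q a • v) = Q a := by
      rw [Q_add, Q_smul, hv, hQu, map_smul, huv, smul_eq_mul]; ring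
    by_contra hc
    simp only [not_exists, not_and, not_not] at hc
    have m1 := hc _ hc1
    have hc2 : Q (u + Q a • v + z) = Q a := by
      simp only [Q_add, Q_smul, hQu, hv, hz, map_add, map_smul, LinearMap.add_apply, LinearMap.smul_apply, smul_eq_mul, huv, huz, hvz]; ring
    have m2 := (Submodule.span F {a}).sub_mem (hc _ hc2) m1
    rw [add_sub_cancel_left] at m2
    obtain ⟨s, hs⟩ := Submodule.mem_span_singleton.1 m2
    have hs0 : s ≠ 0 := fun e => by
      rw [e, zero_smul] at hs
      rw [← hs] at hzw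
      simp at hzw
    rw [← hs, Q_smul, mul_eq_zero] at hz
    exact ha (hz.resolve_left (mul_self_ne_zero.2 hs0))
  have hba : b ∈ Submodule.span F {a} := by
    by_cases ht0 : t = 0
    · rw [ht0, zero_smul] at ht; exact absurd ht.symm ha0
    · refine Submodule.mem_span_singleton.2 ⟨1 - t⁻¹, ?_⟩
      have e := congrArg (fun x : ι → F => t⁻¹ • x) ht
      simp only [inv_smul_smul₀ ht0] at e
      rw [sub_smul, one_smul, ← e]; abel
  have n1 : ∀ s : F, s • (a - c) ≠ a := fun s e => by
    by_cases hs : s = 0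
    · rw [hs, zero_smul] at e; exact ha0 e.symm
    · refine hca (Submodule.mem_span_singleton.2 ⟨1 - s⁻¹, ?_⟩)
      have e' := congrArg (fun x : ι → F => s⁻¹ • x) e
      simp only [inv_smul_smul₀ hs] at e'
      rw [sub_smul, one_smul, ← e']; abel
  have n2 : ∀ s : F, s • (c - b) ≠ c := fun s e => by
    by_cases hs : s = 1
    · rw [hs, one_smul, sub_eq_self] at e
      exact ha (by rw [← hab, e, QuadraticMap.map_zero])
    · obtain ⟨k, hk⟩ := Submodule.mem_span_singleton.1 hba
      refine hca (Submodule.mem_span_singleton.2 ⟨(s - 1)⁻¹ * (s * k), ?_⟩)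
      rw [← smul_smul, inv_smul_eq_iff₀ (sub_ne_zero.2 hs), ← smul_smul, hk, sub_smul, one_smul]
      rw [smul_sub] at e
      linear_combination (norm := module) -e
  obtain ⟨e1, he1, h1⟩ := step a c ha hc n1
  obtain ⟨e2, he2, h2⟩ := step c b (by rwa [hc]) (hab.trans hc.symm) n2
  exact ⟨e2 * e1, mul_mem he2 he1, by rw [mulVec_mul, h1, h2]⟩

include hQ in
/-- The derived group is generated by the Siegel transformations. -/
theorem omega_eq_E [Finite F] (hn : 5 ≤ Fintype.card ι) : Cfsg.Omega F ⇑Q = E Q := by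
  classical
  apply le_antisymm
  · set π := QuotientGroup.mk' (E Q)
    have hR : ∀ v w (hv : Q v ≠ 0) (hw : Q w ≠ 0), Q w = Q v →
        π (Reflections.R Q w hw) = π (Reflections.R Q v hv) := by
      intro v w hv hw h
      obtain ⟨e, he, hev⟩ := exists_E_norm hQ hn hv h
      rw [← Spinor.R_conj e hv hw hev, map_mul, map_mul, map_inv, show π e = 1 from (QuotientGroup.eq_one_iff e).2 he]
      group
    have hgen : Subgroup.closure (π '' Reflections.reflections Q) = ⊤ := by
      rw [← MonoidHom.map_closure, DicksonGen.closure_eq_top hQ (Or.inr (by omega)), ← MonoidHom.range_eq_map,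
        MonoidHom.range_eq_top.2 (QuotientGroup.mk'_surjective _)]
    have hcomm : ∀ x ∈ π '' Reflections.reflections Q, ∀ y ∈ π '' Reflections.reflections Q, x * y = y * x := by
      rintro _ ⟨r, ⟨v, hv, hr⟩, rfl⟩ _ ⟨r', ⟨w, hw, hr'⟩, rfl⟩
      obtain rfl : r = Reflections.R Q v hv := Subtype.ext (Units.ext hr)
      obtain rfl : r' = Reflections.R Q w hw := Subtype.ext (Units.ext hr')
      have hw' : Q ((Reflections.R Q v hv).1.1 *ᵥ w) ≠ 0 := by rw [Q_gen]; exact hw
      have e := Spinor.R_conj (Reflections.R Q v hv) hw hw' rfl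
      have e' := congrArg π e
      rw [hR w _ hw hw' (Q_gen _ _), map_mul, map_mul, map_inv] at e'
      calc π (Reflections.R Q v hv) * π (Reflections.R Q w hw)
          = π (Reflections.R Q v hv) * π (Reflections.R Q w hw) * (π (Reflections.R Q v hv))⁻¹ * π (Reflections.R Q v hv) := by group
        _ = π (Reflections.R Q w hw) * π (Reflections.R Q v hv) := by rw [e']
    have hab : ∀ x y, π x * π y = π y * π x := by
      intro x y
      letI := Subgroup.isMulCommutative_closure hcomm
      have hx : π x ∈ Subgroup.closure (π '' Reflections.reflections Q) := by rw [hgen]; trivial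
      have hy : π y ∈ Subgroup.closure (π '' Reflections.reflections Q) := by rw [hgen]; trivial
      exact congrArg Subtype.val (mul_comm' (⟨_, hx⟩ : Subgroup.closure (π '' Reflections.reflections Q)) ⟨_, hy⟩)
    show ⁅(⊤ : Subgroup _), ⊤⁆ ≤ E Q
    rw [Subgroup.commutator_le]
    intro a _ b _
    rw [← QuotientGroup.eq_one_iff]
    show π ⁅a, b⁆ = 1
    rw [map_commutatorElement, commutatorElement_eq_one_iff_mul_comm]
    exact hab a b
  · rw [E, Subgroup.closure_le]
    rintro _ ⟨u, x, hu, hx, rfl⟩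
    exact Subgroup.commutator_mono le_top le_top (S_mem_commutator hQ hn hu hx)

include hQ in
theorem commutator_omega [Finite F] (hn : 5 ≤ Fintype.card ι) :
    ⁅Cfsg.Omega F ⇑Q, Cfsg.Omega F ⇑Q⁆ = Cfsg.Omega F ⇑Q := by
  refine le_antisymm (Subgroup.commutator_le_self _) ?_
  rw [omega_eq_E hQ hn, E, Subgroup.closure_le]
  rintro _ ⟨u, x, hu, hx, rfl⟩
  exact S_mem_commutator hQ hn hu hx

end CfsgLib.Orth.Siegel
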