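import Mathlib
import Cfsg.Prelude.Def_ClassicalGeometry
import Cfsg.Agent.Lib.Orth.Siegel

/-!
Simplicity of the central quotient of the derived orthogonal group, in dimension at least five.
-/

set_option autoImplicit false
open scoped Matrix commutatorElement Pointwise LinearAlgebra.Projectivization

namespace CfsgLib.Orth.OmegaSimple

open CfsgLib.Geometry CfsgLib.Geometry.QuadBasic CfsgLib.Orth.Siegel

variable {F : Type*} [Field F] {ι : Type} [Fintype ι] [DecidableEq ι] {Q : QuadraticForm F (ι → F)}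

variable (Q) in
/-- Singular points. -/
abbrev Pt : Type _ := {p : ℙ F (ι → F) // Q p.rep = 0}

theorem rep_singular {u : ι → F} (hu : u ≠ 0) (h : Q u = 0) : Q (Projectivization.mk F u hu).rep = 0 := by
  obtain ⟨a, ha⟩ := Projectivization.exists_smul_eq_mk_rep F u hu
  rw [← ha, Units.smul_def, Q_smul, h, mul_zero]

theorem mulVec_ne_zero (g : Cfsg.isometryGroup F ⇑Q) {u : ι → F} (hu : u ≠ 0) : g.1.1 *ᵥ u ≠ 0 := fun h => hu (by
  have e : (g⁻¹).1.1 *ᵥ (g.1.1 *ᵥ u) = u := by rw [← mulVec_mul, inv_mul_cancel]; simp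
  rw [← e, h, Matrix.mulVec_zero])

theorem gl_smul_mk (g : Cfsg.isometryGroup F ⇑Q) {u : ι → F} (hu : u ≠ 0) :
    g.1 • Projectivization.mk F u hu = Projectivization.mk F (g.1.1 *ᵥ u) (mulVec_ne_zero g hu) := rfl

noncomputable instance : MulAction (Cfsg.Omega F ⇑Q) (Pt Q) where
  smul g p := ⟨g.1.1 • p.1, by
    obtain ⟨p, hp⟩ := p
    induction p using Projectivization.ind with | _ u hu =>
    obtain ⟨a, ha⟩ := Projectivization.exists_smul_eq_mk_rep F u hu
    rw [← ha, Units.smul_def, Q_smul] at hp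
    rw [gl_smul_mk g.1 hu]
    refine rep_singular _ ?_
    rw [Q_gen]
    exact (mul_eq_zero.1 hp).resolve_left (mul_self_ne_zero.2 a.ne_zero)⟩
  one_smul p := Subtype.ext (one_smul _ p.1)
  mul_smul g h p := Subtype.ext (mul_smul g.1.1 h.1.1 p.1)

/-- The point of a singular vector. -/
noncomputable def pt (u : ι → F) (hu : u ≠ 0) (h : Q u = 0) : Pt Q := ⟨Projectivization.mk F u hu, rep_singular hu h⟩

theorem pt_eq {u v : ι → F} {hu : u ≠ 0} {h : Q u = 0} {hv : v ≠ 0} {h' : Q v = 0} (a : F) (e : a • v = u) :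
    pt u hu h = pt v hv h' :=
  Subtype.ext ((Projectivization.mk_eq_mk_iff' F u v hu hv).2 ⟨a, e⟩)

theorem pt_surj (p : Pt Q) : ∃ u hu h, p = pt u hu h := by
  obtain ⟨p, hp⟩ := p
  exact ⟨p.rep, p.rep_nonzero, hp, Subtype.ext (Projectivization.mk_rep p).symm⟩

theorem smul_pt (g : Cfsg.Omega F ⇑Q) {u : ι → F} (hu : u ≠ 0) (h : Q u = 0) :
    g • pt u hu h = pt (g.1.1.1 *ᵥ u) (mulVec_ne_zero g.1 hu) (by rw [Q_gen]; exact h) := rfl

variable [Finite F] (hQ : (QuadraticMap.polarBilin Q).Nondegenerate) (hn : 5 ≤ Fintype.card ι)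
include hQ hn

theorem mem_omega {g : Cfsg.isometryGroup F ⇑Q} (h : g ∈ E Q) : g ∈ Cfsg.Omega F ⇑Q := by
  rwa [omega_eq_E hQ hn]

/-- The fixer of a singular point moves any nonperpendicular point to any other. -/
theorem move {u v p : ι → F} (hu : Q u = 0) (hv : Q v = 0) (hp : Q p = 0) (huv : B Q v u ≠ 0) (hpv : B Q v p ≠ 0) :
    ∃ g : Cfsg.Omega F ⇑Q, g.1.1.1 *ᵥ v = v ∧ g.1.1.1 *ᵥ u = (B Q v u / B Q v p) • p := by
  set a := (B Q v u)⁻¹ • u with ha
  set b := (B Q v p)⁻¹ • p with hb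
  have e1 : B Q v a = 1 := by rw [ha, map_smul, smul_eq_mul, inv_mul_cancel₀ huv]
  have e2 : B Q v b = 1 := by rw [hb, map_smul, smul_eq_mul, inv_mul_cancel₀ hpv]
  have hab : Q a = Q b := by rw [ha, hb, Q_smul, Q_smul, hu, hp, mul_zero, mul_zero]
  have hbv : B Q v (b - a) = 0 := by rw [map_sub, e1, e2, sub_self]
  refine ⟨⟨S v (b - a) hv hbv, mem_omega hQ hn (S_mem_E _ _)⟩, ?_, ?_⟩
  · show (S v (b - a) hv hbv).1.1 *ᵥ v = v
    rw [S_apply, B_self, hv, hbv]; simp
  · show (S v (b - a) hv hbv).1.1 *ᵥ u = _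
    have hQb := Q_add (Q := Q) a (b - a)
    rw [add_sub_cancel, ← hab] at hQb
    have hSa : (S v (b - a) hv hbv).1.1 *ᵥ a = b := by
      rw [S_apply, B_comm a v, e1, mul_one, show B Q a (b - a) + Q (b - a) = 0 by linear_combination -hQb, zero_smul,
        sub_zero, one_smul]
      abel
    rw [show u = B Q v u • a by rw [ha, smul_inv_smul₀ huv], Matrix.mulVec_smul, hSa, hb, smul_smul,
      ← div_eq_mul_inv, ← show u = B Q v u • a by rw [ha, smul_inv_smul₀ huv]]

theorem exists_nonperp {u w : ι → F} (hu : Q u = 0) (hw : Q w = 0) (hu0 : u ≠ 0) (hw0 : w ≠ 0) :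
    ∃ v, Q v = 0 ∧ v ≠ 0 ∧ B Q v u ≠ 0 ∧ B Q v w ≠ 0 := by
  by_cases h : B Q u w = 0
  · obtain ⟨y, hy, hy'⟩ : ∃ y, B Q u y ≠ 0 ∧ B Q w y ≠ 0 := by
      obtain ⟨a, -, ha⟩ := exists_partner hQ hu hu0
      obtain ⟨b, -, hb⟩ := exists_partner hQ hw hw0
      by_cases h1 : B Q w a = 0
      · by_cases h2 : B Q u b = 0
        · exact ⟨a + b, by rw [map_add, ha, h2, add_zero]; exact one_ne_zero,
            by rw [map_add, h1, hb, zero_add]; exact one_ne_zero⟩
        · exact ⟨b, h2, by rw [hb]; exact one_ne_zero⟩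
      · exact ⟨a, by rw [ha]; exact one_ne_zero, h1⟩
    refine ⟨y + (-(Q y) / B Q u y) • u, ?_, fun e => hy ?_, ?_, ?_⟩
    · rw [Q_add, Q_smul, hu, map_smul, B_comm y u, smul_eq_mul]; field_simp; ring
    · have := congrArg (B Q u) e
      rwa [map_add, map_smul, B_self, hu, mul_zero, smul_zero, add_zero, map_zero] at this
    · rw [B_comm, map_add, map_smul, B_self, hu, mul_zero, smul_zero, add_zero]; exact hy
    · rw [B_comm, map_add, map_smul, B_comm w u, h, smul_zero, add_zero]; exact hy'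
  · set w' := (B Q u w)⁻¹ • w with hw'
    have hQw' : Q w' = 0 := by rw [hw', Q_smul, hw, mul_zero]
    have huw' : B Q u w' = 1 := by rw [hw', map_smul, smul_eq_mul, inv_mul_cancel₀ h]
    obtain ⟨z, z', hz, hz', hzz, huz, hwz, huz', hwz'⟩ := exists_pair_perp hQ hn hu hQw' huw'
    have hx : Q (z + z') = 1 := by rw [Q_add, hz, hz', hzz]; ring
    set v := u + (z + z') - w' with hv
    have h1 : B Q u v = -1 := by
      simp only [hv, map_sub, map_add, B_self, hu, huz, huz', huw']; ring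
    have h2 : B Q w' v = 1 := by
      simp only [hv, map_sub, map_add, B_self, hQw', hwz, hwz', B_comm w' u, huw']; ring
    refine ⟨v, ?_, fun e => ?_, by rw [B_comm, h1]; simp, fun e => ?_⟩
    · rw [hv, sub_eq_add_neg, ← neg_one_smul F w', Q_add, Q_add, Q_smul, hu, hx, hQw']
      simp only [map_smul, map_add, LinearMap.add_apply, huz, huz', huw', B_comm z w', B_comm z' w', hwz, hwz', smul_eq_mul]
      ring
    · rw [e, map_zero] at h1; simp at h1
    · rw [hw', map_smul, LinearMap.smul_apply, B_comm w v, e, smul_zero] at h2; exact zero_ne_one h2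

theorem exists_map {u w : ι → F} (hu : Q u = 0) (hw : Q w = 0) (hu0 : u ≠ 0) (hw0 : w ≠ 0) :
    ∃ (g : Cfsg.Omega F ⇑Q) (c : F), g.1.1.1 *ᵥ u = c • w := by
  obtain ⟨v, hv, -, h1, h2⟩ := exists_nonperp hQ hn hu hw hu0 hw0
  obtain ⟨g, -, hg⟩ := move hQ hn hu hv hw h1 h2
  exact ⟨g, _, hg⟩

theorem pretransitive : MulAction.IsPretransitive (Cfsg.Omega F ⇑Q) (Pt Q) := ⟨fun p q => by
  obtain ⟨u, hu0, hu, rfl⟩ := pt_surj p
  obtain ⟨w, hw0, hw, rfl⟩ := pt_surj q
  obtain ⟨g, c, hg⟩ := exists_map hQ hn hu hw hu0 hw0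
  exact ⟨g, by rw [smul_pt]; exact pt_eq c hg.symm⟩⟩

omit [Finite F] hQ hn in
theorem block_step {Bk : Set (Pt Q)} (hB : MulAction.IsBlock (Cfsg.Omega F ⇑Q) Bk) (A : Cfsg.Omega F ⇑Q)
    {p : Pt Q} (hp : p ∈ Bk) (hp' : A • p ∈ Bk) {q : Pt Q} (hq : q ∈ Bk) : A • q ∈ Bk := by
  by_cases hne : A • Bk = (1 : Cfsg.Omega F ⇑Q) • Bk
  · rw [← one_smul (Cfsg.Omega F ⇑Q) Bk, ← hne]; exact Set.smul_mem_smul_set hq
  · exact absurd (Set.smul_mem_smul_set hp) (Set.disjoint_right.1 (hB hne) (by rwa [one_smul]))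

theorem block_eq_univ {Bk : Set (Pt Q)} (hB : MulAction.IsBlock (Cfsg.Omega F ⇑Q) Bk) {p q : Pt Q} (hp : p ∈ Bk)
    (hq : q ∈ Bk) (hne : p ≠ q) : Bk = Set.univ := by
  obtain ⟨v, hv0, hv, rfl⟩ := pt_surj p
  -- a point of the block that is not perpendicular
  obtain ⟨u, hu0, hu, huv, hub⟩ : ∃ u hu0 hu, B Q v u ≠ 0 ∧ pt u hu0 hu ∈ Bk := by
    obtain ⟨w, hw0, hw, rfl⟩ := pt_surj q
    by_cases hvw : B Q v w ≠ 0
    · exact ⟨w, hw0, hw, hvw, hq⟩
    rw [not_not] at hvw
    have hli : ∀ a : F, a • w ≠ v := fun a e => hne (pt_eq a e)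
    -- a singular vector perpendicular to w only
    obtain ⟨w', hw', hww'⟩ := exists_partner hQ hw hw0
    obtain ⟨y, hy1, hy2⟩ : ∃ y, B Q w y = 0 ∧ B Q v y ≠ 0 := by
      by_contra h
      simp only [not_exists, not_and, not_not] at h
      refine hli (B Q v w') (sub_eq_zero.1 (hQ.1 _ fun y => ?_)).symm.symm
      have h' := h (y - B Q w y • w') (by rw [map_sub, map_smul, hww', smul_eq_mul, mul_one, sub_self])
      rw [map_sub, map_smul, smul_eq_mul] at h'
      show B Q (B Q v w' • w - v) y = 0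
      rw [map_sub, map_smul, LinearMap.sub_apply, LinearMap.smul_apply, smul_eq_mul]
      linear_combination -h'
    set y' := (B Q v y)⁻¹ • y with hy'
    set z := y' + (-(Q y')) • v with hz
    have e1 : B Q v y' = 1 := by rw [hy', map_smul, smul_eq_mul, inv_mul_cancel₀ hy2]
    have hzv : B Q v z = 1 := by rw [hz, map_add, e1, map_smul, B_self, hv]; simp
    have hQz : Q z = 0 := by rw [hz, Q_add, Q_smul (-(Q y')), hv, map_smul (B Q y'), B_comm y' v, e1, smul_eq_mul]; ring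
    have hzw : B Q w z = 0 := by
      rw [hz, hy', map_add, map_smul, map_smul, hy1, B_comm w v, hvw]; simp
    -- an anisotropic vector orthogonal to z, v, w
    obtain ⟨x, hx, hQx⟩ : ∃ x, (B Q z x = 0 ∧ B Q v x = 0 ∧ B Q w x = 0) ∧ Q x ≠ 0 := by
      by_contra h
      simp only [not_exists, not_and, not_not] at h
      let φ : (ι → F) →ₗ[F] F × (F × F) := (B Q z).prod ((B Q v).prod (B Q w))
      have h1 := φ.finrank_range_add_finrank_ker
      have h2 : Module.finrank F (LinearMap.range φ) ≤ 3 := (Submodule.finrank_le _).trans (le_of_eq (by simp))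
      rw [Module.finrank_fintype_fun_eq_card] at h1
      have hmem : ∀ x ∈ LinearMap.ker φ, B Q z x = 0 ∧ B Q v x = 0 ∧ B Q w x = 0 := fun x hx =>
        ⟨congrArg (fun p : F × (F × F) => p.1) (LinearMap.mem_ker.1 hx),
          congrArg (fun p : F × (F × F) => p.2.1) (LinearMap.mem_ker.1 hx),
          congrArg (fun p : F × (F × F) => p.2.2) (LinearMap.mem_ker.1 hx)⟩
      -- totally singular inside a complement of the plane
      have hK : ∀ x ∈ LinearMap.ker φ, Q x = 0 := fun x hx => by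
        exact h x (hmem x hx)
      set U := LinearMap.ker φ ⊔ Submodule.span F {v}
      have hU : U ≤ LinearMap.BilinForm.orthogonal (B Q) U := by
        have hpp : ∀ x ∈ LinearMap.ker φ, ∀ x' ∈ LinearMap.ker φ, B Q x x' = 0 := fun x hx x' hx' => by
          have := Q_add (Q := Q) x x'
          rw [hK x hx, hK x' hx', hK _ (add_mem hx hx')] at this
          linear_combination -this
        intro a ha
        obtain ⟨a1, ha1, a2, ha2, rfl⟩ := Submodule.mem_sup.1 ha
        obtain ⟨s, rfl⟩ := Submodule.mem_span_singleton.1 ha2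
        rw [LinearMap.BilinForm.mem_orthogonal_iff]
        intro b hb
        obtain ⟨b1, hb1, b2, hb2, rfl⟩ := Submodule.mem_sup.1 hb
        obtain ⟨t, rfl⟩ := Submodule.mem_span_singleton.1 hb2
        show B Q (b1 + t • v) (a1 + s • v) = 0
        simp only [map_add, map_smul, LinearMap.add_apply, LinearMap.smul_apply, smul_eq_mul, hpp b1 hb1 a1 ha1,
          B_comm b1 v, (hmem b1 hb1).2.1, (hmem a1 ha1).2.1, B_self, hv]
        ring
      have hvnot : v ∉ LinearMap.ker φ := fun hm => one_ne_zero (by rw [← hzv, B_comm]; exact (hmem v hm).1)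
      have h4 := Submodule.finrank_sup_span_singleton hvnot
      have h5 := Submodule.finrank_mono hU
      rw [LinearMap.BilinForm.finrank_orthogonal hQ, Module.finrank_fintype_fun_eq_card] at h5
      change _ + Module.finrank F (LinearMap.ker φ) = _ at h1
      change Module.finrank F U = _ at h4
      omega
    obtain ⟨hxz, hxv, hxw⟩ := hx
    let g : Cfsg.Omega F ⇑Q := ⟨S z x hQz hxz, mem_omega hQ hn (S_mem_E _ _)⟩
    have hgw : g.1.1.1 *ᵥ w = w := by
      show (S z x hQz hxz).1.1 *ᵥ w = w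
      rw [S_apply, hzw, hxw]; simp
    have hgv : g.1.1.1 *ᵥ v = v + x + (-Q x) • z := by
      show (S z x hQz hxz).1.1 *ᵥ v = _
      rw [S_apply, hzv, hxv, one_smul, mul_one, zero_add, neg_smul, sub_eq_add_neg]
    have hgp := block_step hB g hq (by rw [smul_pt]; convert hq) hp
    rw [smul_pt] at hgp
    refine ⟨_, _, _, ?_, hgp⟩
    rw [hgv, map_add, map_add, map_smul, B_self, hv, hxv, hzv]; simpa using hQx
  -- nonperpendicular points of the block
  have step : ∀ {a b : ι → F} (ha0 : a ≠ 0) (ha : Q a = 0) (hb0 : b ≠ 0) (hb : Q b = 0), pt a ha0 ha ∈ Bk →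
      pt b hb0 hb ∈ Bk → B Q a b ≠ 0 → ∀ {c : ι → F} (hc0 : c ≠ 0) (hc : Q c = 0), B Q a c ≠ 0 → pt c hc0 hc ∈ Bk := by
    intro a b ha0 ha hb0 hb haB hbB hab c hc0 hc hac
    obtain ⟨g, hga, hgb⟩ := move hQ hn hb ha hc hab hac
    have := block_step hB g haB (by rw [smul_pt]; convert haB) hbB
    rw [smul_pt] at this
    rwa [pt_eq (hv := hc0) (h' := hc) _ hgb.symm] at this
  rw [Set.eq_univ_iff_forall]
  intro r
  obtain ⟨c, hc0, hc, rfl⟩ := pt_surj r
  obtain ⟨v', hv', hv'0, h1, h2⟩ := exists_nonperp hQ hn hv hc hv0 hc0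
  have hv'B : pt v' hv'0 hv' ∈ Bk := step hv0 hv hu0 hu hp hub huv hv'0 hv' (by rw [B_comm]; exact h1)
  exact step hv'0 hv' hv0 hv hv'B hp h1 hc0 hc h2

theorem preprimitive : MulAction.IsPreprimitive (Cfsg.Omega F ⇑Q) (Pt Q) := by
  haveI := pretransitive hQ hn
  refine ⟨fun {Bk} hB => ?_⟩
  by_cases hs : Bk.Subsingleton
  · exact Or.inl hs
  refine Or.inr ?_
  obtain ⟨p, hp, q, hq, hne⟩ := Set.not_subsingleton_iff.1 hs
  exact block_eq_univ hQ hn hB hp hq hne

omit [Finite F] hQ hn in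
theorem exists_root_pt (p : Pt Q) : ∃ u hu h, p = pt u hu h := pt_surj p

/-- The root group of a point. -/
noncomputable def root (p : Pt Q) : Subgroup (Cfsg.Omega F ⇑Q) where
  carrier := {g | ∃ x, ∃ hx : B Q p.1.rep x = 0, g.1 = S p.1.rep x p.2 hx}
  mul_mem' := by
    rintro a b ⟨x, hx, ha⟩ ⟨y, hy, hb⟩
    exact ⟨x + y, by rw [map_add, hx, hy, add_zero], by rw [Subgroup.coe_mul, ha, hb, S_mul]⟩
  one_mem' := ⟨0, map_zero _, by rw [S_zero]; rfl⟩
  inv_mem' := by
    rintro a ⟨x, hx, ha⟩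
    exact ⟨-x, by rw [map_neg, hx, neg_zero], by rw [Subgroup.coe_inv, ha, S_inv]⟩

omit [Finite F] hQ hn in
theorem mem_root {u : ι → F} (hu0 : u ≠ 0) (hu : Q u = 0) {g : Cfsg.Omega F ⇑Q} :
    g ∈ root (pt u hu0 hu) ↔ ∃ x, ∃ hx : B Q u x = 0, g.1 = S u x hu hx := by
  have key : ∀ (u' u'' : ι → F) (hu' : Q u' = 0) (hu'' : Q u'' = 0) (c : F), c • u'' = u' →
      ∀ g : Cfsg.isometryGroup F ⇑Q, (∃ x, ∃ hx : B Q u' x = 0, g = S u' x hu' hx) →
      ∃ x, ∃ hx : B Q u'' x = 0, g = S u'' x hu'' hx := by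
    rintro u' u'' hu' hu'' c rfl g ⟨x, hx, rfl⟩
    have h' : B Q u'' (c • x) = 0 := by
      rw [map_smul]; rw [map_smul, LinearMap.smul_apply] at hx; exact hx
    exact ⟨c • x, h', S_smul_left hu'' c hx h'⟩
  obtain ⟨a, ha⟩ := Projectivization.exists_smul_eq_mk_rep F u hu0
  constructor
  · exact fun h => key _ u (rep_singular hu0 hu) hu (a : F) ha g.1 h
  · exact fun h => key u _ hu (rep_singular hu0 hu) ((a : F)⁻¹) (by
      show (a : F)⁻¹ • (Projectivization.mk F u hu0).rep = u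
      rw [← ha, Units.smul_def, inv_smul_smul₀ a.ne_zero]) g.1 h

/-- The Iwasawa structure. -/
noncomputable def iwasawa : MulAction.IwasawaStructure (Cfsg.Omega F ⇑Q) (Pt Q) where
  T := root (Q := Q)
  is_comm p := ⟨⟨by
    rintro ⟨a, x, hx, ha⟩ ⟨b, y, hy, hb⟩
    refine Subtype.ext (Subtype.ext ?_)
    simp only [Subgroup.coe_mul, ha, hb, S_mul]
    exact S_congr _ _ _ _ rfl (add_comm x y)⟩⟩
  is_conj g p := by
    obtain ⟨u, hu0, hu, rfl⟩ := pt_surj p
    rw [smul_pt]
    ext k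
    rw [Subgroup.mem_pointwise_smul_iff_inv_smul_mem, MulAut.smul_def, MulAut.inv_apply, MulAut.conj_symm_apply,
      mem_root, mem_root]
    constructor
    · rintro ⟨x, hx, hk⟩
      obtain ⟨y, rfl⟩ : ∃ y, g.1.1.1 *ᵥ y = x := ⟨(g.1⁻¹).1.1 *ᵥ x, by rw [← mulVec_mul, mul_inv_cancel]; simp⟩
      have hy : B Q u y = 0 := by rwa [B_gen] at hx
      refine ⟨y, hy, ?_⟩
      rw [Subgroup.coe_mul, Subgroup.coe_mul, Subgroup.coe_inv, hk, ← S_conj g.1 hu hy]
      group
    · rintro ⟨x, hx, hk⟩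
      refine ⟨g.1.1.1 *ᵥ x, by rw [B_gen]; exact hx, ?_⟩
      rw [← S_conj g.1 hu hx, ← hk, Subgroup.coe_mul, Subgroup.coe_mul, Subgroup.coe_inv]
      group
  is_generator := by
    rw [eq_top_iff]
    rintro ⟨g, hg⟩ -
    suffices h : E Q ≤ (⨆ p : Pt Q, root p).map (Cfsg.Omega F ⇑Q).subtype by
      obtain ⟨k, hk, e⟩ := h (by rw [← omega_eq_E hQ hn]; exact hg)
      rwa [← show k = (⟨g, hg⟩ : Cfsg.Omega F ⇑Q) from Subtype.ext e]
    rw [E, Subgroup.closure_le]
    rintro _ ⟨u, x, hu, hx, rfl⟩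
    by_cases hu0 : u = 0
    · have : S u x hu hx = 1 := ext_mulVec fun z => by simp [S_apply, hu0]
      rw [SetLike.mem_coe, this]; exact one_mem _
    · exact ⟨⟨S u x hu hx, mem_omega hQ hn (S_mem_E _ _)⟩,
        Subgroup.mem_iSup_of_mem (pt u hu0 hu) ((mem_root hu0 hu).2 ⟨x, hx, rfl⟩), rfl⟩

/-- An element fixing every singular point is scalar. -/
theorem scalar_of_fixes (g : Cfsg.Omega F ⇑Q) (h : ∀ p : Pt Q, g • p = p) : ∃ a : F, ∀ x, g.1.1.1 *ᵥ x = a • x := by
  obtain ⟨u, -, hu0, hu⟩ := exists_singular_in (Q := Q) (⊤ : Submodule F (ι → F))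
    (by rw [finrank_top, Module.finrank_fintype_fun_eq_card]; omega)
  obtain ⟨v, hv, huv⟩ := exists_partner hQ hu hu0
  have hfix : ∀ w, Q w = 0 → ∃ c : F, g.1.1.1 *ᵥ w = c • w := by
    intro w hw
    by_cases hw0 : w = 0
    · exact ⟨0, by simp [hw0]⟩
    have := congrArg Subtype.val (h (pt w hw0 hw))
    rw [smul_pt] at this
    obtain ⟨c, hc⟩ := (Projectivization.mk_eq_mk_iff' F _ _ _ _).1 this
    exact ⟨c, hc.symm⟩
  obtain ⟨a, ha⟩ := hfix u hu
  refine ⟨a, ?_⟩
  -- any two nonperpendicular singular vectors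
  obtain ⟨b, hb⟩ := hfix v hv
  obtain ⟨z, z', hz, hz', hzz, huz, hvz, huz', hvz'⟩ := exists_pair_perp hQ hn hu hv huv
  have perp_eq : ∀ p q : ι → F, Q p = 0 → Q q = 0 → B Q p q = 0 → LinearIndependent F ![p, q] →
      ∀ c d : F, g.1.1.1 *ᵥ p = c • p → g.1.1.1 *ᵥ q = d • q → c = d := by
    intro p q hp hq hpq hli c d hc hd
    obtain ⟨e, he⟩ := hfix (p + q) (by rw [Q_add, hp, hq, hpq]; ring)
    rw [Matrix.mulVec_add, hc, hd, smul_add] at he
    obtain ⟨h1, h2⟩ := LinearIndependent.pair_iff.1 hli (c - e) (d - e) (by linear_combination (norm := module) he)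
    linear_combination h1 - h2
  have hpair : ∀ p q r : ι → F, B Q p r = 0 → B Q q r = 1 → B Q p p = 0 → p ≠ 0 → LinearIndependent F ![p, q] := by
    intro p q r hpr hqr _ hp0
    rw [LinearIndependent.pair_iff]
    intro s t hst
    have h' := congrArg (fun x => B Q x r) hst
    simp only [map_add, map_smul, LinearMap.add_apply, LinearMap.smul_apply, hpr, hqr, smul_zero, zero_add, map_zero,
      LinearMap.zero_apply, smul_eq_mul, mul_one, mul_zero, zero_add] at h'
    subst h'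
    rw [zero_smul, add_zero, smul_eq_zero] at hst
    exact ⟨hst.resolve_right hp0, rfl⟩
  obtain ⟨c, hc⟩ := hfix z hz
  obtain ⟨c', hc'⟩ := hfix z' hz'
  have hv0 : v ≠ 0 := fun e => by rw [e, map_zero] at huv; exact zero_ne_one huv
  have hz'z : B Q z' z = 1 := by rw [B_comm, hzz]
  have e1 : a = c := perp_eq u z hu hz huz (hpair u z z' huz' hzz (by rw [B_self, hu, mul_zero]) hu0) a c ha hc
  have e2 : a = c' := perp_eq u z' hu hz' huz' (hpair u z' z huz hz'z (by rw [B_self, hu, mul_zero]) hu0) a c' ha hc'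
  have e3 : b = c := perp_eq v z hv hz hvz (hpair v z z' hvz' hzz (by rw [B_self, hv, mul_zero]) hv0) b c hb hc
  subst e1
  rw [e3] at hb
  intro x
  have hsp : x ∈ Submodule.span F {p | p ∈ (⊤ : Submodule F (ι → F)) ∧ Q p = 0} :=
    span_singular (H := ⊤) (z := u) (w := v) trivial trivial hu hv huv trivial
  induction hsp using Submodule.span_induction with
  | mem p hp =>
    obtain ⟨d, hd⟩ := hfix p hp.2
    by_cases hp0 : p = 0
    · simp [hp0]
    -- compare with u or v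
    have hpq : ∀ q : ι → F, g.1.1.1 *ᵥ q = a • q → B Q p q ≠ 0 → a * d = 1 := fun q hq hne => by
      have := B_gen g.1 p q
      rw [hd, hq, map_smul, map_smul, LinearMap.smul_apply, smul_eq_mul, smul_eq_mul] at this
      exact mul_right_cancel₀ hne (by linear_combination this)
    have haa : a * a = 1 := by
      have := B_gen g.1 u v
      rw [ha, hb, map_smul, map_smul, LinearMap.smul_apply, smul_eq_mul, smul_eq_mul, huv, mul_one] at this
      exact this
    have hfin : ∀ q : ι → F, g.1.1.1 *ᵥ q = a • q → B Q p q ≠ 0 → g.1.1.1 *ᵥ p = a • p := fun q hq hne => by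
      have h1 : a * d = 1 := hpq q hq hne
      have ha0 : a ≠ 0 := fun e => by rw [e, zero_mul] at haa; exact zero_ne_one haa
      rw [hd, mul_left_cancel₀ ha0 (h1.trans haa.symm)]
    by_cases h1 : B Q p u = 0
    · by_cases h2 : B Q p v = 0
      · have hli : LinearIndependent F ![p, u] := hpair p u v h2 huv (by rw [B_self, hp.2, mul_zero]) hp0
        rw [hd, perp_eq p u hp.2 hu h1 hli d a hd ha]
      · exact hfin v hb h2
    · exact hfin u ha h1
  | zero => simp
  | add p q _ _ hp hq => rw [Matrix.mulVec_add, hp, hq, smul_add]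
  | smul t p _ hp => rw [Matrix.mulVec_smul, hp, smul_comm]

/-- The central quotient is simple. -/
theorem isSimpleGroup : IsSimpleGroup (Cfsg.POmega F ⇑Q) := by
  haveI := preprimitive hQ hn
  have hperf : commutator (Cfsg.Omega F ⇑Q) = ⊤ := by
    rw [eq_top_iff, commutator_def]
    intro x _
    have hx : x.1 ∈ (⁅(⊤ : Subgroup (Cfsg.Omega F ⇑Q)), (⊤ : Subgroup (Cfsg.Omega F ⇑Q))⁆ : Subgroup (Cfsg.Omega F ⇑Q)).map (Cfsg.Omega F ⇑Q).subtype := by
      rw [Subgroup.map_commutator, ← MonoidHom.range_eq_map, Subgroup.range_subtype, commutator_omega hQ hn]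
      exact x.2
    obtain ⟨y, hy, e⟩ := hx
    rwa [← Subtype.ext e]
  have key : ∀ N : Subgroup (Cfsg.Omega F ⇑Q), N.Normal → N ≤ Subgroup.center _ ∨ N = ⊤ := by
    intro N hN
    by_cases hfix : MulAction.fixedPoints N (Pt Q) = Set.univ
    · refine Or.inl fun g hg => ?_
      obtain ⟨a, ha⟩ := scalar_of_fixes hQ hn g fun p => Set.eq_univ_iff_forall.1 hfix p ⟨g, hg⟩
      refine Subgroup.mem_center_iff.2 fun k => Subtype.ext (ext_mulVec fun z => ?_)
      show (k.1 * g.1).1.1 *ᵥ z = (g.1 * k.1).1.1 *ᵥ z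
      rw [mulVec_mul, mulVec_mul, ha, ha, Matrix.mulVec_smul]
    · refine Or.inr (eq_top_iff.2 ?_)
      rw [← hperf]
      exact (iwasawa hQ hn).commutator_le N hfix
  have hne : Subgroup.center (Cfsg.Omega F ⇑Q) ≠ ⊤ := by
    intro htop
    have hbot : commutator (Cfsg.Omega F ⇑Q) = ⊥ := by
      rw [commutator_def, Subgroup.commutator_eq_bot_iff_le_centralizer]
      intro x _
      rw [Subgroup.mem_centralizer_iff]
      intro y _
      exact Subgroup.mem_center_iff.1 (htop ▸ trivial) y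
    obtain ⟨u, -, hu0, hu⟩ := exists_singular_in (Q := Q) (⊤ : Submodule F (ι → F))
      (by rw [finrank_top, Module.finrank_fintype_fun_eq_card]; omega)
    obtain ⟨v, hv, huv⟩ := exists_partner hQ hu hu0
    obtain ⟨z, z', hz, hz', hzz, huz, hvz, huz', hvz'⟩ := exists_pair_perp hQ hn hu hv huv
    have h1 : (⟨S u z hu huz, mem_omega hQ hn (S_mem_E _ _)⟩ : Cfsg.Omega F ⇑Q) = 1 :=
      Subgroup.mem_bot.1 (by rw [← hbot, hperf]; trivial)
    have h2 := congrArg (fun g : Cfsg.Omega F ⇑Q => B Q z' (g.1.1.1 *ᵥ v)) h1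
    simp only [OneMemClass.coe_one, Units.val_one, Matrix.one_mulVec] at h2
    rw [S_apply, map_sub, map_add, map_smul, map_smul, B_comm z' z, hzz, B_comm z' u, huz', B_comm v u, huv] at h2
    rw [smul_zero, sub_zero, add_comm, smul_eq_mul, one_mul] at h2
    exact one_ne_zero (add_eq_right.1 h2)
  haveI : Nontrivial (Cfsg.POmega F ⇑Q) := QuotientGroup.nontrivial_iff.2 hne
  refine ⟨fun N hN => ?_⟩
  rcases key (N.comap (QuotientGroup.mk' _)) (hN.comap _) with h1 | h1
  · refine Or.inl ?_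
    rw [← Subgroup.map_comap_eq_self_of_surjective (QuotientGroup.mk'_surjective _) N, Subgroup.map_eq_bot_iff,
      QuotientGroup.ker_mk']
    exact h1
  · refine Or.inr ?_
    rw [← Subgroup.map_comap_eq_self_of_surjective (QuotientGroup.mk'_surjective _) N, h1,
      Subgroup.map_top_of_surjective _ (QuotientGroup.mk'_surjective _)]

end CfsgLib.Orth.OmegaSimple
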