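import Mathlib
import Cfsg.Prelude.Def_Classical

/-!
The Klein correspondence and tools identifying derived orthogonal groups with images of perfect groups.
-/

set_option autoImplicit false
open scoped Matrix commutatorElement

namespace CfsgLib.Orth.Klein

/-- The six index pairs. -/
def pr : Fin 3 ⊕ Fin 3 → Fin 4 × Fin 4
  | Sum.inl i => (0, i.succ)
  | Sum.inr i => ![((2 : Fin 4), (3 : Fin 4)), (3, 1), (1, 2)] i

variable {F : Type*} [Field F]

/-- The exterior square. -/
def wedge (g : Matrix (Fin 4) (Fin 4) F) : Matrix (Fin 3 ⊕ Fin 3) (Fin 3 ⊕ Fin 3) F :=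
  Matrix.of fun s t => g (pr s).1 (pr t).1 * g (pr s).2 (pr t).2 - g (pr s).1 (pr t).2 * g (pr s).2 (pr t).1

theorem wedge_one : wedge (1 : Matrix (Fin 4) (Fin 4) F) = 1 := by
  ext s t
  rcases s with s | s <;> rcases t with t | t <;> fin_cases s <;> fin_cases t <;> simp [wedge, pr, Matrix.one_apply]

theorem wedge_mul (g h : Matrix (Fin 4) (Fin 4) F) : wedge (g * h) = wedge g * wedge h := by
  ext s t
  simp only [wedge, Matrix.mul_apply, Matrix.of_apply, Fin.sum_univ_four, Fintype.sum_sum_type, Fin.sum_univ_three,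
    show pr (Sum.inl 0) = (0, 1) from rfl, show pr (Sum.inl 1) = (0, 2) from rfl, show pr (Sum.inl 2) = (0, 3) from rfl,
    show pr (Sum.inr 0) = (2, 3) from rfl, show pr (Sum.inr 1) = (3, 1) from rfl, show pr (Sum.inr 2) = (1, 2) from rfl]
  ring

theorem wedge_quad (g : Matrix (Fin 4) (Fin 4) F) (x : Fin 3 ⊕ Fin 3 → F) :
    Cfsg.quadFormPlus 3 F (wedge g *ᵥ x) = g.det * Cfsg.quadFormPlus 3 F x := by
  simp only [Cfsg.quadFormPlus, Matrix.mulVec, dotProduct, wedge, Matrix.of_apply, Fintype.sum_sum_type, Fin.sum_univ_three,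
    show pr (Sum.inl 0) = (0, 1) from rfl, show pr (Sum.inl 1) = (0, 2) from rfl, show pr (Sum.inl 2) = (0, 3) from rfl,
    show pr (Sum.inr 0) = (2, 3) from rfl, show pr (Sum.inr 1) = (3, 1) from rfl, show pr (Sum.inr 2) = (1, 2) from rfl]
  simp [Matrix.det_succ_row_zero, Fin.sum_univ_succ, Matrix.submatrix_apply, Fin.succAbove]
  ring

theorem wedge_scalar (r : F) : wedge (r • (1 : Matrix (Fin 4) (Fin 4) F)) = r ^ 2 • 1 := by
  have h := wedge_one (F := F)
  have hs : wedge (r • (1 : Matrix (Fin 4) (Fin 4) F)) = r ^ 2 • wedge (1 : Matrix (Fin 4) (Fin 4) F) := by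
    ext s t
    simp only [wedge, Matrix.of_apply, Matrix.smul_apply, smul_eq_mul]
    ring
  rw [hs, h]

variable (F) in
/-- The Klein map into the isometry group. -/
noncomputable def kleinHom :
    Matrix.SpecialLinearGroup (Fin 4) F →* Cfsg.isometryGroup F (Cfsg.quadFormPlus 3 F) :=
  (MonoidHom.toHomUnits
    ({ toFun := fun g => wedge g.1, map_one' := wedge_one, map_mul' := fun g h => wedge_mul g.1 h.1 } :
      Matrix.SpecialLinearGroup (Fin 4) F →* Matrix (Fin 3 ⊕ Fin 3) (Fin 3 ⊕ Fin 3) F)).codRestrict _
    (fun g x _ => by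
      change Cfsg.quadFormPlus 3 F (wedge g.1 *ᵥ x) = Cfsg.quadFormPlus 3 F x
      rw [wedge_quad, g.2, one_mul])

theorem kleinHom_val (g : Matrix.SpecialLinearGroup (Fin 4) F) : (kleinHom F g).1.1 = wedge g.1 := rfl

/-- Recognising the derived subgroup. -/
theorem eq_commutator {G : Type*} [Group G] [Finite G] {H : Subgroup G} (hle : H ≤ commutator G)
    (h : H.index ≤ 2 ∨ (H.index ≤ 4 ∧ (commutator G).index = 4)) : H = commutator G := by
  rcases h with h | ⟨h, h4⟩
  · have hne := Subgroup.FiniteIndex.index_ne_zero (H := H)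
    rcases (show H.index = 1 ∨ H.index = 2 by omega) with h1 | h2
    · rw [Subgroup.index_eq_one] at h1
      exact le_antisymm hle (h1 ▸ le_top)
    · refine le_antisymm hle ?_
      haveI hn : H.Normal := Subgroup.normal_of_index_eq_two h2
      haveI : IsCyclic (G ⧸ H) := isCyclic_of_prime_card (p := 2) (hp := ⟨Nat.prime_two⟩) h2
      letI : CommGroup (G ⧸ H) := IsCyclic.commGroup
      rw [← QuotientGroup.ker_mk' H]
      exact Abelianization.commutator_subset_ker _
  · refine le_antisymm hle ?_
    have hd := Subgroup.index_dvd_of_le hle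
    rw [h4] at hd
    have hi : H.index = 4 := by
      have hne := Subgroup.FiniteIndex.index_ne_zero (H := H)
      obtain ⟨t, ht⟩ := hd
      rcases Nat.lt_or_ge t 2 with htt | htt
      · interval_cases t <;> omega
      · omega
    have hr := Subgroup.relIndex_mul_index hle
    rw [hi, h4] at hr
    exact Subgroup.relIndex_eq_one.1 (by omega)

/-- The central quotient of the image of a group with trivial second centre. -/
theorem quot_center_equiv {G G' : Type*} [Group G] [Group G'] (f : G →* G') (H : Subgroup G') (hr : f.range = H)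
    (hker : f.ker ≤ Subgroup.center G) (hc : Subgroup.center (G ⧸ Subgroup.center G) = ⊥) :
    Nonempty (H ⧸ Subgroup.center H ≃* G ⧸ Subgroup.center G) := by
  subst hr
  let π : f.range →* f.range ⧸ Subgroup.center f.range := QuotientGroup.mk' _
  let φ : G →* f.range ⧸ Subgroup.center f.range := π.comp f.rangeRestrict
  have hφ : φ.ker = Subgroup.center G := by
    ext g
    rw [MonoidHom.mem_ker, MonoidHom.comp_apply, QuotientGroup.mk'_apply, QuotientGroup.eq_one_iff]
    constructor
    · intro h
      have h1 : (g : G ⧸ Subgroup.center G) ∈ Subgroup.center (G ⧸ Subgroup.center G) := by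
        rw [Subgroup.mem_center_iff]
        intro x
        obtain ⟨x, rfl⟩ := QuotientGroup.mk_surjective x
        have h2 := congrArg Subtype.val (Subgroup.mem_center_iff.1 h (f.rangeRestrict x))
        simp only [Subgroup.coe_mul, MonoidHom.coe_rangeRestrict] at h2
        rw [← QuotientGroup.mk_mul, ← QuotientGroup.mk_mul, QuotientGroup.eq]
        apply hker
        rw [MonoidHom.mem_ker, map_mul, map_inv, map_mul, map_mul, h2, inv_mul_cancel]
      rw [hc, Subgroup.mem_bot] at h1
      exact (QuotientGroup.eq_one_iff g).1 h1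
    · intro h
      rw [Subgroup.mem_center_iff]
      rintro ⟨y, x, rfl⟩
      refine Subtype.ext ?_
      change f x * f g = f g * f x
      rw [← map_mul, ← map_mul, Subgroup.mem_center_iff.1 h x]
  exact ⟨((QuotientGroup.quotientMulEquivOfEq hφ.symm).trans
    (QuotientGroup.quotientKerEquivOfSurjective φ
      ((QuotientGroup.mk'_surjective _).comp f.rangeRestrict_surjective))).symm⟩

theorem center_eq_bot_of_simple {G : Type*} [Group G] [IsSimpleGroup G] (h : commutator G = ⊤) :
    Subgroup.center G = ⊥ := by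
  rcases IsSimpleGroup.eq_bot_or_eq_top_of_normal (Subgroup.center G) inferInstance with e | e
  · exact e
  · exfalso
    have h' : commutator G = ⊥ := by
      rw [commutator_def, Subgroup.commutator_eq_bot_iff_le_centralizer]
      intro x _
      rw [Subgroup.mem_centralizer_iff]
      intro y _
      have hx : x ∈ Subgroup.center G := by rw [e]; trivial
      exact Subgroup.mem_center_iff.1 hx y
    exact bot_ne_top (h'.symm.trans h)

end CfsgLib.Orth.Klein
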