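import Mathlib
import Cfsg.Prelude.Def_ClassicalGeometry
import Cfsg.Agent.Lib.Orth.Models
import Cfsg.Agent.Lib.Geometry.SingularClass

/-!
The Levi subgroup fixing two complementary maximal totally singular subspaces.
-/

set_option autoImplicit false
open scoped Matrix

namespace CfsgLib.Orth.Levi

open CfsgLib.Geometry CfsgLib.Geometry.QuadBasic CfsgLib.Orth.Models

variable {F : Type*} [Field F] {m : ℕ}

/-- The block diagonal embedding. -/
noncomputable def Φ : GL (Fin m) F →* Cfsg.isometryGroup F ⇑(plusQ F m) where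
  toFun A := ⟨⟨Matrix.fromBlocks A.1 0 0 (A⁻¹).1ᵀ, Matrix.fromBlocks (A⁻¹).1 0 0 A.1ᵀ,
    by rw [Matrix.fromBlocks_multiply, ← Matrix.transpose_mul, ← Units.val_mul, mul_inv_cancel]; simp [Matrix.fromBlocks_one],
    by rw [Matrix.fromBlocks_multiply, ← Matrix.transpose_mul, ← Units.val_mul, inv_mul_cancel]; simp [Matrix.fromBlocks_one]⟩,
    (mem_isometryGroup_iff _ _).2 fun v => by
      show plusQ F m (Matrix.fromBlocks A.1 0 0 (A⁻¹).1ᵀ *ᵥ v) = plusQ F m v
      rw [plusQ_apply, plusQ_apply, Cfsg.quadFormPlus, Cfsg.quadFormPlus]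
      simp only [Matrix.fromBlocks_mulVec, Matrix.zero_mulVec, add_zero, zero_add, Sum.elim_inl, Sum.elim_inr]
      show (A.1 *ᵥ (v ∘ Sum.inl)) ⬝ᵥ ((A⁻¹).1ᵀ *ᵥ (v ∘ Sum.inr)) = (v ∘ Sum.inl) ⬝ᵥ (v ∘ Sum.inr)
      rw [Matrix.mulVec_transpose, dotProduct_comm, ← Matrix.dotProduct_mulVec, Matrix.mulVec_mulVec,
        ← Units.val_mul, inv_mul_cancel, Units.val_one, Matrix.one_mulVec, dotProduct_comm]⟩
  map_one' := Subtype.ext (Units.ext (by simp [Matrix.fromBlocks_one]))
  map_mul' A B := Subtype.ext (Units.ext (by simp [Matrix.fromBlocks_multiply, Matrix.transpose_mul, -Matrix.coe_units_inv]))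

theorem det_Φ (A : GL (Fin m) F) : (Φ A).1.1.det = 1 := by
  show (Matrix.fromBlocks A.1 0 0 (A⁻¹).1ᵀ).det = 1
  rw [Matrix.det_fromBlocks_zero₂₁, Matrix.det_transpose, ← Matrix.det_mul, ← Units.val_mul, mul_inv_cancel]; simp

/-- The first standard subspace. -/
noncomputable def U0 (F : Type*) [Field F] (m : ℕ) : Submodule F (Fin m ⊕ Fin m → F) :=
  LinearMap.ker (LinearMap.funLeft F F (Sum.inr : Fin m → Fin m ⊕ Fin m))

theorem mem_U0 (x : Fin m ⊕ Fin m → F) : x ∈ U0 F m ↔ ∀ i, x (Sum.inr i) = 0 := by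
  rw [U0, LinearMap.mem_ker, funext_iff]; rfl

theorem finrank_U0 : Module.finrank F (U0 F m) = m := by
  have h1 := (LinearMap.funLeft F F (Sum.inr : Fin m → Fin m ⊕ Fin m)).finrank_range_add_finrank_ker
  rw [LinearMap.range_eq_top.2 (LinearMap.funLeft_surjective_of_injective F F _ Sum.inr_injective), finrank_top,
    Module.finrank_fintype_fun_eq_card, Module.finrank_fintype_fun_eq_card, Fintype.card_sum, Fintype.card_fin] at h1
  exact Nat.add_left_cancel h1

theorem singular_U0 : ∀ x ∈ U0 F m, plusQ F m x = 0 := fun x hx => by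
  rw [plusQ_apply, Cfsg.quadFormPlus]
  exact Finset.sum_eq_zero fun i _ => by rw [(mem_U0 x).1 hx i, mul_zero]

theorem hQ : (QuadraticMap.polarBilin (plusQ F m)).Nondegenerate := Spinor.nondeg_polarBilin (nondeg_plus m)

theorem sign_levi (hex : (∃ c : F, c ≠ 0 ∧ c ≠ 1) ∨ Fintype.card (Fin m ⊕ Fin m) ≠ 4)
    (D : Cfsg.isometryGroup F ⇑(plusQ F m) →* ℤˣ)
    (hD : ∀ v (hv : plusQ F m v ≠ 0), D (Reflections.R _ v hv) = -1) (A : GL (Fin m) F) : D (Φ A) = 1 := by
  have him : SingularClass.im (Φ A) (U0 F m) = U0 F m := by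
    refine Submodule.eq_of_le_of_finrank_eq ?_ (SingularClass.finrank_im _ _)
    rintro _ ⟨x, hx, rfl⟩
    rw [mem_U0]
    intro i
    show (Matrix.fromBlocks A.1 0 0 (A⁻¹).1ᵀ *ᵥ x) (Sum.inr i) = 0
    have : x ∘ Sum.inr = 0 := funext ((mem_U0 x).1 hx)
    simp [Matrix.fromBlocks_mulVec, this]
  rw [SingularClass.sign_eq hQ hex D hD (Φ A) (U0 F m)
    (by rw [finrank_U0, Fintype.card_sum, Fintype.card_fin]; omega) singular_U0, him, inf_idem, Nat.sub_self, pow_zero]

variable [Fintype F] [DecidableEq F]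

/-- The scaling of one hyperbolic pair. -/
theorem theta_scale (h2 : (2 : F) ≠ 0) (i : Fin m) (t : Fˣ) (A : GL (Fin m) F)
    (hA : A.1 = Matrix.diagonal (Function.update (fun _ => (1 : F)) i (t : F))) :
    (Spinor.theta (plusQ F m) h2 hQ (Φ A) : ℤ) = quadraticChar F (t : F) := by
  set a : Fin m ⊕ Fin m → F := Pi.single (Sum.inl i) 1 + Pi.single (Sum.inr i) 1 with ha
  set b : Fin m ⊕ Fin m → F := Pi.single (Sum.inl i) 1 + (t : F) • Pi.single (Sum.inr i) 1 with hb
  have hQa : plusQ F m a = 1 := by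
    rw [plusQ_apply, Cfsg.quadFormPlus, Finset.sum_eq_single i]
    · simp [ha]
    · intro j _ hj; simp [ha, Pi.single_apply, hj]
    · simp
  have hQb : plusQ F m b = t := by
    rw [plusQ_apply, Cfsg.quadFormPlus, Finset.sum_eq_single i]
    · simp [hb]
    · intro j _ hj; simp [hb, Pi.single_apply, hj]
    · simp
  have hpol : ∀ x y, QuadraticMap.polar (⇑(plusQ F m)) x y
      = ∑ j : Fin m, (x (Sum.inl j) * y (Sum.inr j) + x (Sum.inr j) * y (Sum.inl j)) := fun x y => by
    simp only [QuadraticMap.polar, plusQ_apply, Cfsg.quadFormPlus, ← Finset.sum_sub_distrib]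
    exact Finset.sum_congr rfl fun j _ => by simp only [Pi.add_apply]; ring
  have hpa : ∀ y, QuadraticMap.polar (⇑(plusQ F m)) a y = y (Sum.inr i) + y (Sum.inl i) := fun y => by
    rw [hpol, Finset.sum_eq_single i]
    · simp [ha]
    · intro j _ hj; simp [ha, Pi.single_apply, hj]
    · simp
  have hpb : ∀ y, QuadraticMap.polar (⇑(plusQ F m)) b y = y (Sum.inr i) + t * y (Sum.inl i) := fun y => by
    rw [hpol, Finset.sum_eq_single i]
    · simp [hb]
    · intro j _ hj; simp [hb, Pi.single_apply, hj]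
    · simp
  have hAinv : (A⁻¹).1 = Matrix.diagonal (Function.update (fun _ => (1 : F)) i ((t : F)⁻¹)) := by
    have e : A.1 * Matrix.diagonal (Function.update (fun _ => (1 : F)) i ((t : F)⁻¹)) = 1 := by
      rw [hA, Matrix.diagonal_mul_diagonal, ← Matrix.diagonal_one]
      congr 1; funext j
      by_cases hj : j = i <;> simp [Function.update_apply, hj]
    calc (A⁻¹).1 = (A⁻¹).1 * (A.1 * Matrix.diagonal (Function.update (fun _ => (1 : F)) i ((t : F)⁻¹))) := by rw [e, mul_one]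
      _ = _ := by rw [← mul_assoc, ← Units.val_mul, inv_mul_cancel, Units.val_one, one_mul]
  have ha0 : plusQ F m a ≠ 0 := by rw [hQa]; exact one_ne_zero
  have hb0 : plusQ F m b ≠ 0 := by rw [hQb]; exact t.ne_zero
  have hp : Spinor.IsProd (plusQ F m) (Φ A) [a, b] := by
    refine ⟨by simp [ha0, hb0], fun w => ?_⟩
    show Matrix.fromBlocks A.1 0 0 (A⁻¹).1ᵀ *ᵥ w = _
    simp only [SpinorKey.reflProd, SpinorKey.refl, hQa, hQb, hpa, hpb, inv_one, one_mul, Pi.sub_apply, Pi.smul_apply,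
      smul_eq_mul, hA, hAinv, Matrix.diagonal_transpose]
    have ht := t.ne_zero
    funext s
    rcases s with j | j <;> by_cases hj : j = i <;>
      simp [Matrix.fromBlocks_mulVec, Matrix.mulVec_diagonal, Function.update_apply, ha, hb, Pi.single_apply, hj] <;>
      field_simp <;> ring
  rw [Spinor.theta_of_isProd h2 hQ hp]
  simp [hQa, hQb]

/-- The spinor norm on the Levi subgroup. -/
theorem theta_levi (h2 : (2 : F) ≠ 0) (A : GL (Fin m) F) :
    (Spinor.theta (plusQ F m) h2 hQ (Φ A) : ℤ) = quadraticChar F A.1.det := by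
  let ψ : GL (Fin m) F →* ℤ :=
    (Units.coeHom ℤ).comp ((Spinor.theta (plusQ F m) h2 hQ).comp Φ)
  suffices h : ∀ M : Matrix (Fin m) (Fin m) F, M.det ≠ 0 → ∀ A : GL (Fin m) F, A.1 = M → ψ A = quadraticChar F M.det from
    h A.1 ((Matrix.isUnit_iff_isUnit_det _).1 A.isUnit).ne_zero A rfl
  intro M hM
  refine Matrix.diagonal_transvection_induction_of_det_ne_zero
    (fun M => ∀ A : GL (Fin m) F, A.1 = M → ψ A = quadraticChar F M.det) M hM (fun d hd => ?_) (fun t => ?_)
    (fun M N hM hN ihM ihN => ?_)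
  ·
    intro A hA
    rw [Matrix.det_diagonal] at hd ⊢
    have hd' : ∀ i, d i ≠ 0 := fun i => (Finset.prod_ne_zero_iff.1 hd) i (Finset.mem_univ i)
    let dg : (Fin m → Fˣ) →* GL (Fin m) F :=
      (Units.map (Matrix.diagonalRingHom (Fin m) F).toMonoidHom).comp MulEquiv.piUnits.symm.toMonoidHom
    have hdg : ∀ e : Fin m → Fˣ, (dg e).1 = Matrix.diagonal fun j => (e j : F) := fun e => rfl
    have hsingle : ∀ (i : Fin m) (t : Fˣ), ψ (dg (Pi.mulSingle i t)) = quadraticChar F (t : F) := fun i t => by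
      refine theta_scale h2 i t _ ?_
      rw [hdg]
      congr 1; funext j
      by_cases hj : j = i
      · subst hj; simp
      · simp [hj]
    set e : Fin m → Fˣ := fun i => Units.mk0 (d i) (hd' i)
    rw [show A = dg e from Units.ext (hA.trans (hdg e).symm), show ψ (dg e) = (ψ.comp dg) e from rfl,
      ← Finset.univ_prod_mulSingle e, map_prod, map_prod]
    exact Finset.prod_congr rfl fun i _ => hsingle i (e i)
  ·
    intro A hA
    rw [Matrix.TransvectionStruct.det, map_one]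
    haveI : NeZero (2 : F) := ⟨h2⟩
    have e : Matrix.transvection t.i t.j (t.c / 2) * Matrix.transvection t.i t.j (t.c / 2) = t.toMatrix := by
      rw [Matrix.transvection_mul_transvection_same t.i t.j t.hij, add_halves]; rfl
    let H : GL (Fin m) F := Matrix.GeneralLinearGroup.mkOfDetNeZero (Matrix.transvection t.i t.j (t.c / 2))
      (by rw [Matrix.det_transvection_of_ne _ _ t.hij]; exact one_ne_zero)
    have hAH : A = H * H := Units.ext (hA.trans e.symm)
    rw [hAH, map_mul]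
    show ((Spinor.theta (plusQ F m) h2 hQ (Φ H) : ℤˣ) : ℤ) * (Spinor.theta (plusQ F m) h2 hQ (Φ H) : ℤˣ) = 1
    rw [← Units.val_mul, Int.units_mul_self, Units.val_one]
  ·
    intro A hA
    let X := Matrix.GeneralLinearGroup.mkOfDetNeZero M hM
    let Y := Matrix.GeneralLinearGroup.mkOfDetNeZero N hN
    rw [show A = X * Y from Units.ext hA, map_mul, ihM X rfl, ihN Y rfl, Matrix.det_mul, map_mul]

/-- Membership of the Levi element in the derived group. -/
theorem Φ_mem_omega_iff (hm : 1 ≤ m) (hex : (∃ c : F, c ≠ 0 ∧ c ≠ 1) ∨ Fintype.card (Fin m ⊕ Fin m) ≠ 4)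
    (A : GL (Fin m) F) : Φ A ∈ Cfsg.Omega F ⇑(plusQ F m) ↔ IsSquare A.1.det := by
  haveI : Nontrivial (Fin m ⊕ Fin m) := ⟨⟨Sum.inl ⟨0, hm⟩, Sum.inr ⟨0, hm⟩, by simp⟩⟩
  have hdet : A.1.det ≠ 0 := ((Matrix.isUnit_iff_isUnit_det _).1 A.isUnit).ne_zero
  by_cases h2 : (2 : F) = 0
  · haveI : CharP F 2 := CharTwo.of_one_ne_zero_of_two_eq_zero one_ne_zero h2
    refine iff_of_true ?_ (FiniteField.isSquare_of_char_two (ringChar.eq F 2) _)
    obtain ⟨D, hD⟩ := DicksonGen.exists_dickson hQ hex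
    obtain ⟨a, ha⟩ := OmegaIndex.exists_aniso (Q := plusQ F m) hQ
    rcases OmegaTools.adjust_two hQ hex (Φ A) ha with h1 | h1
    · exact h1
    · have h3 : D (Reflections.R _ a ha * Φ A) = 1 := Abelianization.commutator_subset_ker D h1
      rw [map_mul, hD, sign_levi hex D hD A] at h3
      exact absurd h3 (by decide)
  · rw [Spinor.mem_omega_iff h2 hQ, and_iff_right (det_Φ A), Units.ext_iff, theta_levi h2 A, Units.val_one,
      quadraticChar_one_iff_isSquare hdet]

end CfsgLib.Orth.Levi
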