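import Mathlib

/-!
Images of quasisimple groups.
-/

set_option autoImplicit false
open scoped commutatorElement

namespace CfsgLib.Orth.PerfectImage

variable {G G' : Type*} [Group G] [Group G'] (f : G →* G')

theorem range_le_commutator (h : commutator G = ⊤) : f.range ≤ commutator G' := by
  rintro _ ⟨g, rfl⟩
  have hg : g ∈ commutator G := by rw [h]; trivial
  have h' := Subgroup.mem_map_of_mem f hg
  rw [commutator_def, Subgroup.map_commutator] at h'
  exact Subgroup.commutator_mono le_top le_top h'

theorem ker_le_center (h : commutator G = ⊤) [IsSimpleGroup (G ⧸ Subgroup.center G)] (hne : f ≠ 1) :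
    f.ker ≤ Subgroup.center G := by
  let π := QuotientGroup.mk' (Subgroup.center G)
  rcases IsSimpleGroup.eq_bot_or_eq_top_of_normal (f.ker.map π)
    (Subgroup.Normal.map inferInstance π (QuotientGroup.mk'_surjective _)) with e | e
  · rw [Subgroup.map_eq_bot_iff, QuotientGroup.ker_mk'] at e; exact e
  · refine absurd (MonoidHom.ext fun g => ?_) hne
    have hcomm : ∀ x y, f x * f y = f y * f x := fun x y => by
      have hx : π x ∈ f.ker.map π := by rw [e]; trivial
      obtain ⟨k, hk, hkx⟩ := hx
      have hz : k⁻¹ * x ∈ Subgroup.center G := QuotientGroup.eq.1 hkx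
      have e' : f x = f (k⁻¹ * x) := by rw [map_mul, map_inv, MonoidHom.mem_ker.1 hk, inv_one, one_mul]
      rw [e', ← map_mul, ← map_mul, Subgroup.mem_center_iff.1 hz y]
    have hle : commutator G ≤ f.ker := by
      rw [commutator_def, Subgroup.commutator_le]
      intro x _ y _
      rw [MonoidHom.mem_ker, map_commutatorElement, commutatorElement_eq_one_iff_mul_comm]
      exact hcomm x y
    exact hle (by rw [h]; trivial : g ∈ commutator G)

theorem commutator_quotient_eq_top (h : commutator G = ⊤) (N : Subgroup G) [N.Normal] :
    commutator (G ⧸ N) = ⊤ := by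
  rw [eq_top_iff]
  intro x _
  obtain ⟨g, rfl⟩ := QuotientGroup.mk'_surjective N x
  exact range_le_commutator (QuotientGroup.mk' N) h ⟨g, rfl⟩

theorem index_eq [Finite G] {T : Subgroup G'} (hr : f.range = T) {c : ℕ} (hc : Nat.card G' = c * Nat.card G) :
    T.index = c * Nat.card f.ker := by
  subst hr
  have h2 : Nat.card G = Nat.card f.range * Nat.card f.ker := by
    rw [← Nat.card_congr (QuotientGroup.quotientKerEquivRange f).toEquiv]
    exact Subgroup.card_eq_card_quotient_mul_card_subgroup _
  have h1 := Subgroup.card_mul_index f.range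
  haveI : Finite f.range := Finite.of_surjective f.rangeRestrict f.rangeRestrict_surjective
  apply Nat.eq_of_mul_eq_mul_left (Nat.card_pos (α := f.range))
  rw [h1, hc, h2]
  ring

end CfsgLib.Orth.PerfectImage
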