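import Mathlib
import Cfsg.Prelude.Def_Classical
import Cfsg.Agent.Lib.Orth.Models
import Cfsg.Agent.Lib.TwoModels.QuatIso

/-! Isometry groups of binary forms are dihedral. -/
set_option autoImplicit false

namespace CfsgLib.Orth.PlaneDihedral
open scoped Matrix

variable {F : Type*} [Field F] [Fintype F]

theorem dihedral_of_hom {G C : Type*} [Group G] [Finite G] [Group C] [IsCyclic C] [Finite C] {n : ℕ}
    (L : C →* G) (hL : Function.Injective L) (hC : Nat.card C = n) (S : G) (hS : S * S = 1)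
    (hinv : ∀ c, S * L c * S = (L c)⁻¹) (hSL : S ∉ L.range) (hG : Nat.card G = 2 * n) :
    Nonempty (G ≃* DihedralGroup n) := by
  haveI : NeZero n := ⟨hC ▸ Nat.card_pos.ne'⟩
  obtain ⟨g, hg⟩ := IsCyclic.exists_generator (α := C)
  refine CfsgLib.TwoModels.dihedral_iso' (r := L g) (s := S) ?_ ?_ hS ?_ hG
  · rw [orderOf_injective L hL, orderOf_eq_card_of_forall_mem_zpowers hg, hC]
  · intro h
    obtain ⟨k, hk⟩ := h
    exact hSL ⟨g ^ k, by rw [map_zpow]; exact hk⟩
  · rw [inv_eq_of_mul_eq_one_right hS, hinv]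

theorem plus_dihedral : Nonempty (Cfsg.isometryGroup F (Cfsg.quadFormPlus 1 F) ≃* DihedralGroup (Fintype.card F - 1)) := by
  classical
  let D : Fˣ →* Matrix (Fin 1 ⊕ Fin 1) (Fin 1 ⊕ Fin 1) F :=
    { toFun := fun t => Matrix.diagonal (Sum.elim (fun _ => (t : F)) (fun _ => ((t⁻¹ : Fˣ) : F)))
      map_one' := by
        rw [← Matrix.diagonal_one]; congr 1; funext i; rcases i with i | i <;> simp
      map_mul' := fun s t => by
        rw [Matrix.diagonal_mul_diagonal]; congr 1; funext i; rcases i with i | i <;> simp [mul_comm] }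
  let L' : Fˣ →* Matrix.GeneralLinearGroup (Fin 1 ⊕ Fin 1) F := D.toHomUnits
  have hL' : ∀ t, L' t ∈ Cfsg.isometryGroup F (Cfsg.quadFormPlus 1 F) := fun t u v => by
    show Cfsg.quadFormPlus 1 F (D t *ᵥ u) = Cfsg.quadFormPlus 1 F u
    simp only [D, MonoidHom.coe_mk, OneHom.coe_mk, Cfsg.quadFormPlus, Fin.sum_univ_one, Matrix.mulVec_diagonal,
      Sum.elim_inl, Sum.elim_inr]
    rw [mul_mul_mul_comm, Units.mul_inv, one_mul]
  let σ : Equiv.Perm (Fin 1 ⊕ Fin 1) := Equiv.sumComm (Fin 1) (Fin 1)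
  let P : Matrix (Fin 1 ⊕ Fin 1) (Fin 1 ⊕ Fin 1) F := σ.permMatrix F
  have hP : P * P = 1 := by
    show σ.permMatrix F * σ.permMatrix F = 1
    rw [← Matrix.permMatrix_mul, ← Matrix.permMatrix_one (R := F) (n := Fin 1 ⊕ Fin 1)]
    congr 1
    ext x; rcases x with x | x <;> rfl
  let S' : Matrix.GeneralLinearGroup (Fin 1 ⊕ Fin 1) F := ⟨P, P, hP, hP⟩
  have hS' : S' ∈ Cfsg.isometryGroup F (Cfsg.quadFormPlus 1 F) := fun u v => by
    show Cfsg.quadFormPlus 1 F (P *ᵥ u) = Cfsg.quadFormPlus 1 F u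
    simp [P, σ, Matrix.permMatrix_mulVec, Cfsg.quadFormPlus, mul_comm]
  let L := L'.codRestrict _ hL'
  refine dihedral_of_hom L ?_ ?_ ⟨S', hS'⟩ ?_ ?_ ?_ ?_
  · intro s t h
    have := congrFun (congrFun (congrArg (fun g : Cfsg.isometryGroup F (Cfsg.quadFormPlus 1 F) => g.1.1) h) (Sum.inl 0)) (Sum.inl 0)
    apply Units.ext
    simpa [L, L', D] using this
  · rw [Nat.card_units, Nat.card_eq_fintype_card]
  · exact Subtype.ext (Units.ext hP)
  · intro t
    rw [← map_inv]
    apply Subtype.ext; apply Units.ext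
    show P * D t * P = D t⁻¹
    have e : ∀ i j, P i j = if (Equiv.sumComm (Fin 1) (Fin 1)) i = j then (1 : F) else 0 := fun i j => by
      simp [P, σ, Equiv.Perm.permMatrix, PEquiv.toMatrix_apply]
    ext i j
    rcases i with i | i <;> rcases j with j | j <;> fin_cases i <;> fin_cases j <;>
      simp [Matrix.mul_apply, Fintype.sum_sum_type, e, D]
  · rintro ⟨t, ht⟩
    have := congrFun (congrFun (congrArg (fun g : Cfsg.isometryGroup F (Cfsg.quadFormPlus 1 F) => g.1.1) ht) (Sum.inl 0)) (Sum.inl 0)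
    simp [L, L', D, S', P, σ, Equiv.Perm.permMatrix, PEquiv.toMatrix_apply] at this
  · rw [CfsgLib.Orth.Models.card_isometryGroup]
    have h := CfsgLib.Orth.Models.card_iso_plus (F := F) 0
    simp only [zero_add, Finset.range_zero, Finset.prod_empty, mul_one, mul_zero, pow_zero, pow_one, mul_one] at h
    rw [← h]
    exact congrArg (fun Q => Nat.card (CfsgLib.Orth.Hyperbolic.Iso F Q)) (funext fun v => (CfsgLib.Orth.Models.plusQ_apply 1 v).symm)

theorem minus_dihedral {a b : F} (hab : CfsgLib.Orth.Binary.Aniso a b) :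
    Nonempty (Cfsg.isometryGroup F (Cfsg.quadFormMinus 0 F a b) ≃* DihedralGroup (Fintype.card F + 1)) := by
  classical
  haveI : Fact (∀ r : F, r ^ 2 ≠ -b + a * r) := ⟨fun r h => one_ne_zero (α := F) (hab (-r) 1 (by linear_combination h)).2⟩
  haveI : Finite (QuadraticAlgebra F (-b) a) :=
    Finite.of_injective (fun z => (z.re, z.im)) fun z w h => QuadraticAlgebra.ext (Prod.mk.inj h).1 (Prod.mk.inj h).2
  let e : Fin 2 ≃ (Fin 0 ⊕ Fin 0) ⊕ Fin 2 :=
    { toFun := Sum.inr
      invFun := Sum.elim (fun x => x.elim (fun i => i.elim0) (fun i => i.elim0)) id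
      left_inv := fun i => rfl
      right_inv := fun x => by rcases x with (i | i) | i <;> first | exact i.elim0 | rfl }
  let M : QuadraticAlgebra F (-b) a →* Matrix (Fin 2) (Fin 2) F :=
    { toFun := fun z => !![z.re, -b * z.im; z.im, z.re + a * z.im]
      map_one' := by
        have h1 : (1 : QuadraticAlgebra F (-b) a).re = 1 := rfl
        have h2 : (1 : QuadraticAlgebra F (-b) a).im = 0 := rfl
        ext i j; fin_cases i <;> fin_cases j <;> simp [h1, h2]
      map_mul' := fun z w => by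
        ext i j; fin_cases i <;> fin_cases j <;> simp [Matrix.mul_apply, Fin.sum_univ_two] <;> ring }
  let R := Matrix.reindexAlgEquiv F F e
  let U : Subgroup (QuadraticAlgebra F (-b) a)ˣ := (Units.map QuadraticAlgebra.norm).ker
  let L' : U →* Matrix.GeneralLinearGroup ((Fin 0 ⊕ Fin 0) ⊕ Fin 2) F :=
    ((Units.map (R.toMonoidHom.comp M))).comp U.subtype
  have hQ : ∀ (A : Matrix (Fin 2) (Fin 2) F), (∀ v : Fin 2 → F, (A *ᵥ v) 0 ^ 2 + a * (A *ᵥ v) 0 * (A *ᵥ v) 1 + b * (A *ᵥ v) 1 ^ 2
      = v 0 ^ 2 + a * v 0 * v 1 + b * v 1 ^ 2) → ∀ v, Cfsg.quadFormMinus 0 F a b (R A *ᵥ v) = Cfsg.quadFormMinus 0 F a b v := by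
    intro A hA v
    have h : ∀ i, (R A *ᵥ v) (Sum.inr i) = (A *ᵥ (v ∘ Sum.inr)) i := fun i => by
      show ∑ j, A (e.symm (Sum.inr i)) (e.symm j) * v j = ∑ j, A i j * v (Sum.inr j)
      rw [← Equiv.sum_comp e]
      rfl
    simp only [Cfsg.quadFormMinus, Finset.univ_eq_empty, Finset.sum_empty, zero_add, h]
    exact hA (v ∘ Sum.inr)
  have hnorm : ∀ u : U, u.1.1.re * u.1.1.re + a * u.1.1.re * u.1.1.im + b * u.1.1.im * u.1.1.im = 1 := fun u => by
    have h : u.1.1.norm = 1 := congrArg Units.val (MonoidHom.mem_ker.1 u.2)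
    rw [QuadraticAlgebra.norm_def] at h
    linear_combination h
  have hL' : ∀ u, L' u ∈ Cfsg.isometryGroup F (Cfsg.quadFormMinus 0 F a b) := fun u v _ => by
    show Cfsg.quadFormMinus 0 F a b (R (M u.1.1) *ᵥ v) = _
    refine hQ _ (fun w => ?_) v
    simp [M, dotProduct, Fin.sum_univ_two]
    linear_combination (w 0 ^ 2 + a * w 0 * w 1 + b * w 1 ^ 2) * hnorm u
  let P : Matrix (Fin 2) (Fin 2) F := !![1, a; 0, -1]
  have hP : P * P = 1 := by ext i j; fin_cases i <;> fin_cases j <;> simp [P, Matrix.mul_apply, Fin.sum_univ_two]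
  let S' : Matrix.GeneralLinearGroup ((Fin 0 ⊕ Fin 0) ⊕ Fin 2) F :=
    ⟨R P, R P, by rw [← map_mul, hP, map_one], by rw [← map_mul, hP, map_one]⟩
  have hS' : S' ∈ Cfsg.isometryGroup F (Cfsg.quadFormMinus 0 F a b) := fun v _ => by
    show Cfsg.quadFormMinus 0 F a b (R P *ᵥ v) = _
    refine hQ _ (fun w => ?_) v
    simp [P, dotProduct, Fin.sum_univ_two]
    ring
  let L := L'.codRestrict _ hL'
  refine dihedral_of_hom L ?_ ?_ ⟨S', hS'⟩ ?_ ?_ ?_ ?_
  · intro s t h
    have h1 : M s.1.1 = M t.1.1 :=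
      R.injective (congrArg (fun g : Cfsg.isometryGroup F (Cfsg.quadFormMinus 0 F a b) => g.1.1) h)
    exact Subtype.ext (Units.ext (QuadraticAlgebra.ext (congrFun (congrFun h1 0) 0) (congrFun (congrFun h1 1) 0)))
  · rw [← CfsgLib.Orth.Binary.card_one hab]
    refine Nat.card_congr
      { toFun := fun u => ⟨![u.1.1.re, u.1.1.im], by
          rw [CfsgLib.Orth.Binary.bin_apply]; simp only [Matrix.cons_val_zero, Matrix.cons_val_one]
          linear_combination hnorm u⟩
        invFun := fun v => ⟨Units.mk0 ⟨v.1 0, v.1 1⟩ (fun h => by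
            have h0 := congrArg QuadraticAlgebra.re h
            have h1 := congrArg QuadraticAlgebra.im h
            simp at h0 h1
            have := v.2
            rw [CfsgLib.Orth.Binary.bin_apply, h0, h1] at this
            simp at this), MonoidHom.mem_ker.2 (Units.ext (by
            show QuadraticAlgebra.norm (⟨v.1 0, v.1 1⟩ : QuadraticAlgebra F (-b) a) = 1
            have := v.2
            rw [CfsgLib.Orth.Binary.bin_apply] at this
            rw [QuadraticAlgebra.norm_def]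
            linear_combination this))⟩
        left_inv := fun u => Subtype.ext (Units.ext (QuadraticAlgebra.ext rfl rfl))
        right_inv := fun v => Subtype.ext (by funext i; fin_cases i <;> rfl) }
  · exact Subtype.ext (Units.ext S'.val_inv)
  · intro u
    rw [← map_inv]
    apply Subtype.ext; apply Units.ext
    show R P * R (M u.1.1) * R P = R (M (u⁻¹).1.1)
    rw [← map_mul, ← map_mul]
    congr 1
    have hs : ((u⁻¹ : U).1.1 : QuadraticAlgebra F (-b) a) = star u.1.1 := by
      refine left_inv_eq_right_inv (a := u.1.1) ?_ ?_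
      · rw [← Units.val_mul, ← Subgroup.coe_mul, inv_mul_cancel]; rfl
      · rw [← QuadraticAlgebra.algebraMap_norm_eq_mul_star,
          show u.1.1.norm = 1 from congrArg Units.val (MonoidHom.mem_ker.1 u.2), map_one]
    rw [hs]
    ext i j
    fin_cases i <;> fin_cases j <;> simp [P, M, Matrix.mul_apply, Fin.sum_univ_two] <;> ring
  · rintro ⟨u, hu⟩
    have h1 : M u.1.1 = P :=
      R.injective (congrArg (fun g : Cfsg.isometryGroup F (Cfsg.quadFormMinus 0 F a b) => g.1.1) hu)
    have e00 := congrFun (congrFun h1 0) 0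
    have e01 := congrFun (congrFun h1 0) 1
    have e10 := congrFun (congrFun h1 1) 0
    have e11 := congrFun (congrFun h1 1) 1
    simp [M, P] at e00 e01 e10 e11
    rw [e10] at e01 e11
    simp [e00] at e01 e11
    refine CfsgLib.Orth.Binary.a_ne_zero_of_char_two hab ?_ e01.symm
    linear_combination e11
  · rw [CfsgLib.Orth.Models.card_isometryGroup]
    have h := CfsgLib.Orth.Binary.card_iso hab
    rw [← h]
    exact (CfsgLib.Orth.Hyperbolic.iso_card_congr _ _ (CfsgLib.Orth.Models.minusE0 F) (fun v => by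
      rw [CfsgLib.Orth.Models.minusE0_spec, CfsgLib.Orth.Models.minusQ_apply]))

end CfsgLib.Orth.PlaneDihedral
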