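import Mathlib
import Cfsg.Prelude.Def_LieClassical
import Cfsg.Agent.Lib.QuadClass.Witt
import Cfsg.Agent.Lib.Unitary.TwoSubfield
import Cfsg.Agent.Lib.Geometry.QuadBasic

/-!
The unitary group inside an orthogonal group of twice the dimension.
-/

set_option autoImplicit false
open scoped Matrix

namespace CfsgLib.Orth.UnitaryEmb

open CfsgLib.QuadClass CfsgLib.Orth.Models CfsgLib.Orth.Binary CfsgLib.Orth.Hyperbolic

variable {F : Type*} [Field F]

/-- A sum of copies of one binary form. -/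
def copies (a b : F) (m : ℕ) : QuadraticForm F (Fin m ⊕ Fin m → F) :=
  ∑ i : Fin m, (bin a b).comp (LinearMap.pi ![LinearMap.proj (Sum.inl i), LinearMap.proj (Sum.inr i)])

theorem copies_apply (a b : F) (m : ℕ) (v : Fin m ⊕ Fin m → F) :
    copies a b m v = ∑ i : Fin m, (v (Sum.inl i) ^ 2 + a * v (Sum.inl i) * v (Sum.inr i) + b * v (Sum.inr i) ^ 2) := by
  simp [copies, QuadraticMap.sum_apply, bin_apply]

theorem nondeg_copies [Fintype F] {a b : F} (h : Aniso a b) (m : ℕ) : Nondeg (copies a b m) := by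
  intro u hu
  obtain ⟨i, hi⟩ : ∃ i, ![u (Sum.inl i), u (Sum.inr i)] ≠ 0 := by
    by_contra hc
    simp only [not_exists, not_not] at hc
    refine hu (funext fun s => ?_)
    rcases s with i | i
    · exact congrFun (hc i) 0
    · exact congrFun (hc i) 1
  obtain ⟨y, hy⟩ := Binary.nondeg h _ hi
  refine ⟨Pi.single (Sum.inl i) (y 0) + Pi.single (Sum.inr i) (y 1), ?_⟩
  convert hy using 1
  simp only [QuadraticMap.polar, copies_apply, ← Finset.sum_sub_distrib]
  rw [Finset.sum_eq_single i]
  · simp [bin_apply, Matrix.vecHead, Matrix.vecTail]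
  · intro j _ hj
    simp [Pi.single_apply, hj]
  · simp

variable [Finite F]

theorem copies_even {a b : F} (h : Aniso a b) (k : ℕ) : Equiv' (copies a b (2 * k)) (plusQ F (2 * k)) := by
  haveI := Fintype.ofFinite F
  rcases k with - | k
  · exact equiv_zero _ _ (by simp) (by simp)
  obtain ⟨t, ht⟩ := Binary.exists_value h (-1)
  rw [bin_apply] at ht
  let d : Fin (2 * (k + 1)) → Fin (k + 1) := fun i => ⟨i / 2, by omega⟩
  let L : (Fin (k + 1) ⊕ Fin (k + 1) → F) →ₗ[F] (Fin (2 * (k + 1)) ⊕ Fin (2 * (k + 1)) → F) :=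
    LinearMap.pi fun s => match s with
      | Sum.inl i => if (i : ℕ) % 2 = 0 then LinearMap.proj (Sum.inl (d i))
          else t 0 • LinearMap.proj (Sum.inl (d i)) - (b * t 1) • LinearMap.proj (Sum.inr (d i))
      | Sum.inr i => if (i : ℕ) % 2 = 0 then LinearMap.proj (Sum.inr (d i))
          else t 0 • LinearMap.proj (Sum.inr (d i)) + t 1 • LinearMap.proj (Sum.inl (d i)) + (a * t 1) • LinearMap.proj (Sum.inr (d i))
  have hL1 : ∀ x (i : Fin (2 * (k + 1))), (i : ℕ) % 2 = 0 → L x (Sum.inl i) = x (Sum.inl (d i)) ∧ L x (Sum.inr i) = x (Sum.inr (d i)) :=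
    fun x i hi => by simp [L, hi]
  have hinj : Function.Injective L := by
    intro x y e
    funext s
    rcases s with j | j
    · have := congrFun e (Sum.inl (⟨2 * (j : ℕ), by omega⟩ : Fin (2 * (k + 1))))
      rw [(hL1 x _ (by simp)).1, (hL1 y _ (by simp)).1] at this
      simpa [d] using this
    · have := congrFun e (Sum.inr (⟨2 * (j : ℕ), by omega⟩ : Fin (2 * (k + 1))))
      rw [(hL1 x _ (by simp)).2, (hL1 y _ (by simp)).2] at this
      simpa [d] using this
  refine (has_max_singular_iff (2 * k + 1) (nondeg_copies h _) (by simp; omega)).2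
    ⟨LinearMap.range L, ?_, by rw [LinearMap.finrank_range_of_inj hinj]; simp; omega⟩
  rintro _ ⟨x, rfl⟩
  rw [copies_apply]
  have hterm : ∀ i : Fin (2 * (k + 1)), L x (Sum.inl i) ^ 2 + a * L x (Sum.inl i) * L x (Sum.inr i) + b * L x (Sum.inr i) ^ 2
      = (-1) ^ (i : ℕ) * (x (Sum.inl (d i)) ^ 2 + a * x (Sum.inl (d i)) * x (Sum.inr (d i)) + b * x (Sum.inr (d i)) ^ 2) := by
    intro i
    by_cases hi : (i : ℕ) % 2 = 0
    · rw [(hL1 x i hi).1, (hL1 x i hi).2, (Nat.even_iff.2 hi).neg_one_pow, one_mul]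
    · rw [(Nat.odd_iff.2 (by omega : (i : ℕ) % 2 = 1)).neg_one_pow]
      simp [L, hi]
      linear_combination (x (Sum.inl (d i)) ^ 2 + a * x (Sum.inl (d i)) * x (Sum.inr (d i)) + b * x (Sum.inr (d i)) ^ 2) * ht
  rw [Finset.sum_congr rfl fun i _ => hterm i]
  refine Finset.sum_involution (fun i _ => (⟨if (i : ℕ) % 2 = 0 then (i : ℕ) + 1 else (i : ℕ) - 1, by split_ifs <;> omega⟩ : Fin (2 * (k + 1))))
    (fun i _ => ?_) (fun i _ _ e => ?_) (fun _ _ => Finset.mem_univ _) (fun i _ => ?_)
  · have hdj : ∀ (pf : (if (i : ℕ) % 2 = 0 then (i : ℕ) + 1 else (i : ℕ) - 1) < 2 * (k + 1)),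
        d ⟨if (i : ℕ) % 2 = 0 then (i : ℕ) + 1 else (i : ℕ) - 1, pf⟩ = d i := fun pf => Fin.ext (by
      show (if (i : ℕ) % 2 = 0 then (i : ℕ) + 1 else (i : ℕ) - 1) / 2 = (i : ℕ) / 2
      split_ifs <;> omega)
    simp only [hdj]
    by_cases hi : (i : ℕ) % 2 = 0
    · simp only [hi, if_true]
      rw [(Nat.even_iff.2 hi).neg_one_pow, ((Nat.even_iff.2 hi).add_one).neg_one_pow]; ring
    · simp only [hi, if_false]
      rw [(Nat.odd_iff.2 (by omega : (i : ℕ) % 2 = 1)).neg_one_pow, (Nat.even_iff.2 (by omega : ((i : ℕ) - 1) % 2 = 0)).neg_one_pow]; ring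
  · have := congrArg Fin.val e
    simp only at this
    split_ifs at this <;> omega
  · refine Fin.ext ?_
    simp only
    split_ifs <;> omega

theorem copies_odd {a b a' b' : F} (h : Aniso a b) (h' : Aniso a' b') (k : ℕ) :
    Equiv' (copies a b (2 * k + 1)) (minusQ (2 * k) a' b') := by
  refine Equiv'.trans ?_ (minus_unique (2 * k) h h')
  obtain ⟨e, he⟩ := copies_even h k
  let cs : Fin (2 * k) ⊕ Fin (2 * k) → Fin (2 * k + 1) ⊕ Fin (2 * k + 1) := Sum.map Fin.castSucc Fin.castSucc
  let L : (Fin (2 * k + 1) ⊕ Fin (2 * k + 1) → F) →ₗ[F] ((Fin (2 * k) ⊕ Fin (2 * k)) ⊕ Fin 2 → F) :=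
    LinearMap.pi fun s => match s with
      | Sum.inl s => (LinearMap.proj s).comp (e.toLinearMap.comp (LinearMap.funLeft F F cs))
      | Sum.inr j => ![LinearMap.proj (Sum.inl (Fin.last (2 * k))), LinearMap.proj (Sum.inr (Fin.last (2 * k)))] j
  have hinj : Function.Injective L := by
    intro x y hxy
    have h1 : x ∘ cs = y ∘ cs := e.injective (funext fun s => congrFun hxy (Sum.inl s))
    funext s
    rcases s with i | i <;> rcases Fin.eq_castSucc_or_eq_last i with ⟨j, rfl⟩ | rfl
    · exact congrFun h1 (Sum.inl j)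
    · exact congrFun hxy (Sum.inr 0)
    · exact congrFun h1 (Sum.inr j)
    · exact congrFun hxy (Sum.inr 1)
  refine ⟨LinearEquiv.ofInjectiveOfFinrankEq L hinj (by simp; omega), fun v => ?_⟩
  show minusQ (2 * k) a b (L v) = _
  rw [minusQ_apply, Cfsg.quadFormMinus, copies_apply, Fin.sum_univ_castSucc]
  have h1 := he (v ∘ cs)
  rw [plusQ_apply, Cfsg.quadFormPlus, copies_apply] at h1
  exact congrArg₂ (· + ·) h1 rfl

variable [Fintype F] {K : Type*} [Field K] [Fintype K] {q : ℕ}

/-- The embedding, given an isometry type. -/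
theorem exists_emb {ι : Type} [Fintype ι] [DecidableEq ι] (hK : Fintype.card K = q ^ 2) (hF : Fintype.card F = q)
    (m : ℕ) (f : (ι → F) → F) (hf : ∀ a b : F, Aniso a b → ∃ e : (Fin m ⊕ Fin m → F) ≃ₗ[F] (ι → F), ∀ v, f (e v) = copies a b m v) :
    ∃ φ : ↥(Cfsg.GU m K q) →* ↥(Cfsg.isometryGroup F f), Function.Injective φ := by
  classical
  obtain ⟨φ⟩ := CfsgLib.Unitary.TwoSubfield.exists_ringHom hK hF
  letI : Algebra F K := φ.toAlgebra
  have hq2 := CfsgLib.Unitary.FieldNorm.two_le_q hK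
  have hfix : ∀ x : K, x ^ q = x → ∃ a : F, φ a = x := by
    intro x hx
    by_contra hc
    have hsub : insert x ((Finset.univ : Finset F).image φ) ⊆ (Polynomial.X ^ q - Polynomial.X : Polynomial K).roots.toFinset := by
      intro y hy
      rw [Multiset.mem_toFinset, Polynomial.mem_roots (FiniteField.X_pow_card_sub_X_ne_zero K (by omega))]
      simp only [Polynomial.IsRoot.def, Polynomial.eval_sub, Polynomial.eval_pow, Polynomial.eval_X, sub_eq_zero]
      rcases Finset.mem_insert.1 hy with rfl | hy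
      · exact hx
      · obtain ⟨a, -, rfl⟩ := Finset.mem_image.1 hy
        rw [← map_pow, ← hF, FiniteField.pow_card]
    have h1 := (Finset.card_le_card hsub).trans ((Multiset.toFinset_card_le _).trans (Polynomial.card_roots' _))
    rw [Finset.card_insert_of_notMem (by simpa using hc), Finset.card_image_of_injective _ φ.injective, Finset.card_univ,
      hF, FiniteField.X_pow_card_sub_X_natDegree_eq K (by omega)] at h1
    omega
  obtain ⟨θ, hθ⟩ : ∃ θ : K, ∀ a : F, φ a ≠ θ := by
    by_contra hc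
    simp only [not_exists, not_forall, not_not] at hc
    have h1 := Fintype.card_le_of_surjective φ hc
    rw [hK, hF] at h1
    nlinarith
  obtain ⟨τ, hτ⟩ := hfix (θ + θ ^ q) (by
    rw [CfsgLib.Unitary.FieldNorm.add_pow_q hK, CfsgLib.Unitary.FieldNorm.pow_q_q hK]; ring)
  obtain ⟨ν, hν⟩ := hfix (θ ^ (q + 1)) (by
    rw [pow_succ, mul_pow, CfsgLib.Unitary.FieldNorm.pow_q_q hK]; ring)
  have hfq : ∀ a : F, φ a ^ q = φ a := fun a => by rw [← map_pow, ← hF, FiniteField.pow_card]
  have hnorm : ∀ x y : F, (φ x + φ y * θ) * (φ x + φ y * θ) ^ q = φ (x ^ 2 + τ * x * y + ν * y ^ 2) := by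
    intro x y
    rw [CfsgLib.Unitary.FieldNorm.add_pow_q hK, mul_pow, hfq, hfq]
    simp only [map_add, map_mul, map_pow, hτ, hν]
    ring
  have hzero : ∀ x y : F, φ x + φ y * θ = 0 → x = 0 ∧ y = 0 := by
    intro x y h
    have hy : y = 0 := by
      by_contra hy
      refine hθ (-x / y) ?_
      rw [map_div₀, map_neg, div_eq_iff (by simpa using hy)]
      linear_combination -h
    subst hy
    exact ⟨φ.injective (by simpa using h), rfl⟩
  have han : Aniso τ ν := by
    intro x y h
    refine hzero x y ?_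
    have := hnorm x y
    rw [h, map_zero, ← pow_succ'] at this
    exact (pow_eq_zero_iff (by omega)).1 this
  obtain ⟨e, he⟩ := hf τ ν han
  let C : (Fin m ⊕ Fin m → F) →ₗ[F] (Fin m → K) :=
    { toFun := fun v i => φ (v (Sum.inl i)) + φ (v (Sum.inr i)) * θ
      map_add' := fun v w => by funext i; simp only [Pi.add_apply, map_add]; ring
      map_smul' := fun c v => by
        funext i
        simp only [Pi.smul_apply, smul_eq_mul, map_mul, RingHom.id_apply, Algebra.smul_def]
        show _ = φ c * _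
        ring }
  have hCinj : Function.Injective C := by
    rw [← LinearMap.ker_eq_bot, LinearMap.ker_eq_bot']
    intro v hv
    funext s
    rcases s with i | i
    · exact (hzero _ _ (congrFun hv i)).1
    · exact (hzero _ _ (congrFun hv i)).2
  have hCbij : Function.Bijective C := by
    rw [Fintype.bijective_iff_injective_and_card]
    refine ⟨hCinj, ?_⟩
    rw [Fintype.card_fun, Fintype.card_fun, Fintype.card_sum, Fintype.card_fin, hF, hK, ← pow_mul]
    congr 1; omega
  let Ce := LinearEquiv.ofBijective C hCbij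
  let E : (Fin m → K) ≃ₗ[F] (ι → F) := Ce.symm.trans e
  have hE : ∀ v, φ (f (E v)) = Cfsg.hermForm m K q v v := by
    intro v
    obtain ⟨w, rfl⟩ := Ce.surjective v
    show φ (f (e (Ce.symm (Ce w)))) = Cfsg.hermForm m K q (C w) (C w)
    rw [LinearEquiv.symm_apply_apply, he, copies_apply, map_sum, Cfsg.hermForm]
    exact Finset.sum_congr rfl fun i _ => (hnorm _ _).symm
  let op : Matrix (Fin m) (Fin m) K → Matrix ι ι F := fun g =>
    LinearMap.toMatrix' (E.toLinearMap ∘ₗ ((Matrix.mulVecLin g).restrictScalars F) ∘ₗ E.symm.toLinearMap)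
  have hop : ∀ g x, op g *ᵥ x = E (g *ᵥ E.symm x) := fun g x => by
    simp only [op, LinearMap.toMatrix'_mulVec]; rfl
  have hopmul : ∀ g h, op (g * h) = op g * op h := fun g h => Matrix.toLin'.injective (LinearMap.ext fun x => by
    simp only [Matrix.toLin'_apply, ← Matrix.mulVec_mulVec, hop, LinearEquiv.symm_apply_apply])
  have hopone : op 1 = 1 := Matrix.toLin'.injective (LinearMap.ext fun x => by
    simp only [Matrix.toLin'_apply, hop, Matrix.one_mulVec, LinearEquiv.apply_symm_apply])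
  let ω : Matrix.GeneralLinearGroup (Fin m) K →* Matrix.GeneralLinearGroup ι F :=
    Units.map { toFun := op, map_one' := hopone, map_mul' := hopmul }
  refine ⟨(ω.comp (Cfsg.GU m K q).subtype).codRestrict _ fun g => ?_, fun g h hgh => ?_⟩
  · refine (CfsgLib.Geometry.QuadBasic.mem_isometryGroup_iff _ _).2 fun x => ?_
    show f (op g.1.1 *ᵥ x) = f x
    refine φ.injective ?_
    conv_rhs => rw [← E.apply_symm_apply x]
    rw [hop, hE, hE]
    exact g.2 _ _
  · have h1 : op g.1.1 = op h.1.1 := congrArg (fun z : ↥(Cfsg.isometryGroup F f) => z.1.1) hgh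
    refine Subtype.ext (Units.ext (Matrix.toLin'.injective (LinearMap.ext fun v => ?_)))
    have := congrArg (fun M => M *ᵥ E v) h1
    simp only [hop, LinearEquiv.symm_apply_apply, EmbeddingLike.apply_eq_iff_eq] at this
    simpa using this

end CfsgLib.Orth.UnitaryEmb
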